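import Cfsg.Agent.FC.Struct5

/-!
Irreducible fixed-point-free representations over an algebraic closure of the rationals.
-/

set_option autoImplicit false
set_option linter.unusedSectionVars false

namespace Cfsg.Agent.FC

open Matrix

universe u v w

/-- base change of a fixed-point-free rational matrix representation -/
theorem exists_rep_field {G : Type u} [Group G] (h : HasMat ℚ G) (K : Type v) [Field K] [Algebra ℚ K] :
    ∃ (n : ℕ) (ρ : Representation K G (Fin n → K)), 0 < n ∧ ∀ g : G, g ≠ 1 → ∀ v : Fin n → K, ρ g v = v → v = 0 := by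
  classical
  obtain ⟨n, R, hn, hR⟩ := h
  refine ⟨n, ?_, hn, ?_⟩
  · exact 
      { toFun := fun g => Matrix.mulVecLin ((R g).map (algebraMap ℚ K))
        map_one' := by
          rw [map_one, Matrix.map_one _ (map_zero _) (map_one _), Matrix.mulVecLin_one]; rfl
        map_mul' := by
          intro g h
          rw [map_mul, Matrix.map_mul, Matrix.mulVecLin_mul]; rfl }
  · intro g hg v hv
    have h1 : ((R g).map (algebraMap ℚ K)) *ᵥ v = v := hv
    have h2 : IsUnit (R g - 1) := isUnit_sub_one hR hg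
    have h3 : ((R g - 1).map (algebraMap ℚ K)) *ᵥ v = 0 := by
      rw [Matrix.map_sub _ (map_sub _), Matrix.map_one _ (map_zero _) (map_one _), Matrix.sub_mulVec, h1,
        Matrix.one_mulVec, sub_self]
    by_contra hv0
    have h4 := Matrix.exists_mulVec_eq_zero_iff.mp ⟨v, hv0, h3⟩
    have h5 : (algebraMap ℚ K) (R g - 1).det = 0 := by rw [RingHom.map_det]; exact h4
    have h6 : (R g - 1).det = 0 := (algebraMap ℚ K).injective (by rw [h5, map_zero])
    rw [Matrix.isUnit_iff_isUnit_det, h6] at h2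
    exact not_isUnit_zero h2

/-- a minimal invariant subspace gives an irreducible fixed-point-free matrix representation -/
theorem exists_irr {G : Type u} [Group G] {K : Type v} [Field K] {V : Type w} [AddCommGroup V] [Module K V]
    [FiniteDimensional K V] [Nontrivial V] (ρ : Representation K G V)
    (hf : ∀ g : G, g ≠ 1 → ∀ v : V, ρ g v = v → v = 0) :
    ∃ (n : ℕ) (τ : G →* GL (Fin n) K), 0 < n ∧ Function.Injective τ ∧
      (∀ W : Submodule K (Fin n → K),
        (∀ g : G, ∀ w ∈ W, ((τ g : GL (Fin n) K) : Matrix (Fin n) (Fin n) K).mulVec w ∈ W) → W = ⊥ ∨ W = ⊤) ∧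
      ∀ g : G, g ≠ 1 → ∀ v : Fin n → K, ((τ g : GL (Fin n) K) : Matrix (Fin n) (Fin n) K).mulVec v = v → v = 0 := by
  classical
  -- minimal invariant subspace
  let S : Set (Submodule K V) := {W | W ≠ ⊥ ∧ ∀ g : G, ∀ w ∈ W, ρ g w ∈ W}
  have hS : S.Nonempty := ⟨⊤, top_ne_bot, fun _ _ _ => trivial⟩
  obtain ⟨W, hW, hmin⟩ := WellFounded.has_min (wellFounded_lt (α := Submodule K V)) S hS
  obtain ⟨hW0, hWinv⟩ := hW
  have hmin' : ∀ W' : Submodule K V, W' ≤ W → W' ≠ ⊥ → (∀ g : G, ∀ w ∈ W', ρ g w ∈ W') → W' = W := by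
    intro W' hle hne hinv
    by_contra hcon
    exact hmin W' ⟨hne, hinv⟩ (lt_of_le_of_ne hle hcon)
  haveI : Nontrivial W := (Submodule.nontrivial_iff_ne_bot).mpr hW0
  let σ : Representation K G W :=
    { toFun := fun g => (ρ g).restrict (hWinv g)
      map_one' := by
        ext w
        simp
      map_mul' := by
        intro g h
        ext w
        simp }
  have hσ : ∀ (g : G) (w : W), ((σ g w : W) : V) = ρ g (w : V) := fun g w => rfl
  let b := Module.finBasis K W
  set n := Module.finrank K W with hn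
  let τ₀ : G →* Matrix (Fin n) (Fin n) K := (LinearMap.toMatrixAlgEquiv b).toAlgHom.toRingHom.toMonoidHom.comp σ
  have hτ : ∀ (g : G) (w : W), (τ₀ g) *ᵥ (b.repr w : Fin n → K) = b.repr (σ g w) := by
    intro g w
    show LinearMap.toMatrix b b (σ g) *ᵥ _ = _
    rw [LinearMap.toMatrix_mulVec_repr]
  have hn0 : 0 < n := Module.finrank_pos
  have hfpf : ∀ g : G, g ≠ 1 → ∀ v : Fin n → K, (τ₀ g) *ᵥ v = v → v = 0 := by
    intro g hg v hv
    obtain ⟨w, rfl⟩ := b.equivFun.surjective v
    have h2 : b.equivFun w = b.repr w := rfl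
    rw [h2, hτ] at hv
    have h3 : σ g w = w := b.repr.injective (DFunLike.coe_injective hv)
    have h4 : ρ g (w : V) = w := by rw [← hσ, h3]
    have h5 : w = 0 := Subtype.ext (hf g hg _ h4)
    rw [h5, map_zero]
  refine ⟨n, τ₀.toHomUnits, hn0, ?_, ?_, ?_⟩
  · rw [injective_iff_map_eq_one]
    intro g hg
    by_contra hg1
    have h1 : τ₀ g = 1 := congrArg Units.val hg
    have h2 := hfpf g hg1 (fun _ => 1) (by rw [h1, Matrix.one_mulVec])
    have h3 := congrFun h2 ⟨0, hn0⟩
    exact one_ne_zero h3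
  · intro U hU
    by_cases hU0 : U = ⊥
    · exact Or.inl hU0
    right
    set U' : Submodule K V := (U.comap b.equivFun.toLinearMap).map W.subtype with hU'
    have h1 : U' = W := by
      apply hmin'
      · rintro _ ⟨w, -, rfl⟩
        exact w.2
      · intro h0
        apply hU0
        rw [eq_bot_iff]
        intro v hv
        obtain ⟨w, rfl⟩ := b.equivFun.surjective v
        have h2 : (w : V) ∈ U' := ⟨w, hv, rfl⟩
        rw [h0, Submodule.mem_bot] at h2
        have h3 : w = 0 := Subtype.ext h2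
        rw [h3, map_zero]; exact Submodule.zero_mem _
      · rintro g _ ⟨w, hw, rfl⟩
        refine ⟨σ g w, ?_, rfl⟩
        show b.equivFun (σ g w) ∈ U
        have h2 := hU g _ hw
        have h3 : (τ₀ g) *ᵥ (b.equivFun w) = b.equivFun (σ g w) := hτ g w
        rw [← h3]
        exact h2
    rw [eq_top_iff]
    intro v _
    obtain ⟨w, rfl⟩ := b.equivFun.surjective v
    have h2 : (w : V) ∈ U' := by rw [h1]; exact w.2
    obtain ⟨w', hw', h3⟩ := h2
    have h4 : w' = w := Subtype.ext h3
    rw [← h4]; exact hw'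
  · exact hfpf

end Cfsg.Agent.FC
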