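import Cfsg.Agent.FC.Struct1

/-!
Presentations of metacyclic groups.
-/

set_option autoImplicit false
set_option linter.unusedSectionVars false

namespace Cfsg.Agent.FC

open Subgroup

universe u

/-- relators of a metacyclic group -/
def mR (n m r : ℕ) : Set (FreeGroup (Fin 2)) :=
  {FreeGroup.of (0 : Fin 2) ^ n, FreeGroup.of (1 : Fin 2) ^ m,
    (FreeGroup.of (0 : Fin 2))⁻¹ * FreeGroup.of 1 * FreeGroup.of 0 * (FreeGroup.of (1 : Fin 2) ^ r)⁻¹}

theorem pow_conj_aux {P : Type u} [Group P] {X Y : P} {r : ℕ} (h : X⁻¹ * Y * X = Y ^ r) (j : ℕ) :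
    Y ^ j * X = X * Y ^ (r * j) := by
  have h1 : X⁻¹ * Y ^ j * X = Y ^ (r * j) := by
    have h2 := conj_pow (a := X⁻¹) (b := Y) (i := j)
    rw [inv_inv] at h2
    rw [← h2, h, ← pow_mul]
  rw [← h1]; group

/-- every element of the group is `X^i Y^j` -/
theorem metacyclic_card {P : Type u} [Group P] {X Y : P} {n m r : ℕ} (hn : 0 < n) (hm : 0 < m) (hX : X ^ n = 1) (hY : Y ^ m = 1)
    (h : X⁻¹ * Y * X = Y ^ r) (hgen : Subgroup.closure {X, Y} = ⊤) : Finite P ∧ Nat.card P ≤ n * m := by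
  have key : ∀ g : P, ∃ i j : ℕ, g = X ^ i * Y ^ j := by
    intro g
    have hg : g ∈ Subgroup.closure {X, Y} := by rw [hgen]; trivial
    induction hg using Subgroup.closure_induction_right with
    | one => exact ⟨0, 0, by simp⟩
    | mul_right a _ b hb ih =>
      obtain ⟨i, j, rfl⟩ := ih
      rcases hb with rfl | rfl
      · exact ⟨i + 1, r * j, by rw [mul_assoc, pow_conj_aux h, ← mul_assoc, ← pow_succ]⟩
      · exact ⟨i, j + 1, by rw [mul_assoc, ← pow_succ]⟩
    | mul_inv_cancel a _ b hb ih =>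
      obtain ⟨i, j, rfl⟩ := ih
      rcases hb with rfl | rfl
      · -- b⁻¹ = b ^ (n - 1)
        have h1 : b⁻¹ = b ^ (n - 1) := by
          rw [inv_eq_iff_mul_eq_one, ← pow_succ', Nat.sub_add_cancel hn, hX]
        have h2 : ∀ k : ℕ, ∀ i j : ℕ, ∃ i' j' : ℕ, b ^ i * Y ^ j * b ^ k = b ^ i' * Y ^ j' := by
          intro k
          induction k with
          | zero => intro i j; exact ⟨i, j, by simp⟩
          | succ k ih =>
            intro i j
            obtain ⟨i', j', h3⟩ := ih (i + 1) (r * j)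
            refine ⟨i', j', ?_⟩
            rw [← h3, pow_succ', pow_succ b i, ← mul_assoc, mul_assoc (b ^ i), pow_conj_aux h, ← mul_assoc]
        rw [h1]
        exact h2 _ i j
      · have h1 : b⁻¹ = b ^ (m - 1) := by
          rw [inv_eq_iff_mul_eq_one, ← pow_succ', Nat.sub_add_cancel hm, hY]
        exact ⟨i, j + (m - 1), by rw [h1, mul_assoc, ← pow_add]⟩
  let f : Fin n × Fin m → P := fun p => X ^ (p.1 : ℕ) * Y ^ (p.2 : ℕ)
  have hf : Function.Surjective f := by
    intro g
    obtain ⟨i, j, rfl⟩ := key g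
    refine ⟨(⟨i % n, Nat.mod_lt _ hn⟩, ⟨j % m, Nat.mod_lt _ hm⟩), ?_⟩
    show X ^ (i % n) * Y ^ (j % m) = X ^ i * Y ^ j
    have h1 : X ^ (i % n) = X ^ i := by
      conv_rhs => rw [← Nat.div_add_mod i n, pow_add, pow_mul, hX, one_pow, one_mul]
    have h2 : Y ^ (j % m) = Y ^ j := by
      conv_rhs => rw [← Nat.div_add_mod j m, pow_add, pow_mul, hY, one_pow, one_mul]
    rw [h1, h2]
  have hfin : Finite P := Finite.of_surjective f hf
  refine ⟨hfin, ?_⟩
  have := Nat.card_le_card_of_surjective f hf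
  simpa using this

theorem metacyclic_pres {G : Type u} [Group G] {x y : G} {n m r : ℕ} (hn : 0 < n) (hm : 0 < m) (hxn : x ^ n = 1)
    (hym : y ^ m = 1) (hr : x⁻¹ * y * x = y ^ r) (hcard : Nat.card G = n * m) (hgen : Subgroup.closure {x, y} = ⊤) :
    Nonempty (G ≃* PresentedGroup (mR n m r)) := by
  have hX : (PresentedGroup.of 0 : PresentedGroup (mR n m r)) ^ n = 1 :=
    PresentedGroup.one_of_mem (rels := mR n m r) (x := FreeGroup.of 0 ^ n) (by rw [mR]; simp)
  have hY : (PresentedGroup.of 1 : PresentedGroup (mR n m r)) ^ m = 1 :=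
    PresentedGroup.one_of_mem (rels := mR n m r) (x := FreeGroup.of 1 ^ m) (by rw [mR]; simp)
  have hXY : (PresentedGroup.of 0 : PresentedGroup (mR n m r))⁻¹ * PresentedGroup.of 1 * PresentedGroup.of 0 * (PresentedGroup.of 1 ^ r)⁻¹ = 1 :=
    PresentedGroup.one_of_mem (rels := mR n m r)
      (x := (FreeGroup.of (0 : Fin 2))⁻¹ * FreeGroup.of 1 * FreeGroup.of 0 * (FreeGroup.of (1 : Fin 2) ^ r)⁻¹) (by rw [mR]; simp)
  have hgenP : Subgroup.closure {(PresentedGroup.of 0 : PresentedGroup (mR n m r)), PresentedGroup.of 1} = ⊤ := by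
    rw [← PresentedGroup.closure_range_of (mR n m r)]
    congr 1
    ext z
    constructor
    · rintro (rfl | rfl) <;> exact ⟨_, rfl⟩
    · rintro ⟨i, rfl⟩
      fin_cases i
      · left; rfl
      · right; rfl
  obtain ⟨hfin, hle⟩ := metacyclic_card hn hm hX hY (mul_inv_eq_one.mp hXY) hgenP
  let f : Fin 2 → G := ![x, y]
  have hf : ∀ w ∈ mR n m r, FreeGroup.lift f w = 1 := by
    rintro w (rfl | rfl | rfl)
    · simp only [map_pow, FreeGroup.lift_apply_of]
      exact hxn
    · simp only [map_pow, FreeGroup.lift_apply_of]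
      exact hym
    · simp only [map_mul, map_inv, map_pow, FreeGroup.lift_apply_of]
      change x⁻¹ * y * x * (y ^ r)⁻¹ = 1
      rw [hr, mul_inv_cancel]
  let φ : PresentedGroup (mR n m r) →* G := PresentedGroup.toGroup hf
  have hφ0 : φ (PresentedGroup.of 0) = x := PresentedGroup.toGroup.of hf
  have hφ1 : φ (PresentedGroup.of 1) = y := PresentedGroup.toGroup.of hf
  have hsurj : Function.Surjective φ := by
    rw [← MonoidHom.range_eq_top, eq_top_iff, ← hgen, Subgroup.closure_le]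
    rintro z (rfl | rfl)
    · exact ⟨_, hφ0⟩
    · exact ⟨_, hφ1⟩
  haveI : Finite G := Nat.finite_of_card_ne_zero (by rw [hcard]; positivity)
  have hle2 := Nat.card_le_card_of_surjective φ hsurj
  rw [hcard] at hle2
  have hbij : Function.Bijective φ := (Nat.bijective_iff_surjective_and_card φ).2 ⟨hsurj, by rw [hcard]; omega⟩
  exact ⟨(MulEquiv.ofBijective φ hbij).symm⟩

end Cfsg.Agent.FC
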