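import Cfsg.Agent.FC.Square
import Cfsg.Agent.FC.Struct5
import Cfsg.Agent.FC.Semi
import Cfsg.Agent.S0068
import Cfsg.Agent.S0035
import Cfsg.Agent.H81.Quat

/-!
Frobenius groups whose complement has a quaternion subgroup.
-/

set_option autoImplicit false
set_option linter.unusedSectionVars false

namespace Cfsg.Agent.FC

open Frob (HasFPFModule)
open Subgroup

universe u

theorem square_of_subgroup {L : Type u} [Group L] [Finite L] (K : Subgroup L) [K.Normal] (hc : IsMulCommutative K)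
    (hodd : Odd (Nat.card K)) (i j : L) (hinv : ∀ k ∈ K, i * i * k * (i * i)⁻¹ = k⁻¹) (hjj : j * j = i * i)
    (hij : j * i * j⁻¹ = i⁻¹) : IsSquare (Nat.card K) := by
  letI : CommGroup K := { (inferInstance : Group K) with mul_comm := fun a b => hc.is_comm.comm a b }
  let I : Additive K →+ Additive K := MonoidHom.toAdditive (MulAut.conjNormal (H := K) i).toMonoidHom
  let J : Additive K →+ Additive K := MonoidHom.toAdditive (MulAut.conjNormal (H := K) j).toMonoidHom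
  have hI : ∀ v : K, ((MulAut.conjNormal (H := K) i v : K) : L) = i * v * i⁻¹ := fun v => MulAut.conjNormal_apply _ _
  have hJ : ∀ v : K, ((MulAut.conjNormal (H := K) j v : K) : L) = j * v * j⁻¹ := fun v => MulAut.conjNormal_apply _ _
  have h := isSquare_card_of_quat (A := Additive K) hodd I J (by
    intro v
    apply Subtype.ext (p := fun x => x ∈ K)
    show ((MulAut.conjNormal (H := K) i (MulAut.conjNormal (H := K) i v.toMul) : K) : L) = ((v.toMul : K) : L)⁻¹
    rw [hI, hI, ← hinv _ v.toMul.2]; group) (by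
    intro v
    apply Subtype.ext (p := fun x => x ∈ K)
    show ((MulAut.conjNormal (H := K) j (MulAut.conjNormal (H := K) j v.toMul) : K) : L) = ((v.toMul : K) : L)⁻¹
    rw [hJ, hJ, ← hinv _ v.toMul.2, ← hjj]; group) (by
    intro v
    apply Subtype.ext (p := fun x => x ∈ K)
    show ((MulAut.conjNormal (H := K) i (MulAut.conjNormal (H := K) j v.toMul) : K) : L) =
      ((MulAut.conjNormal (H := K) j (MulAut.conjNormal (H := K) i v.toMul) : K) : L)⁻¹
    rw [← hinv _ (MulAut.conjNormal (H := K) j (MulAut.conjNormal (H := K) i v.toMul)).2, hI, hJ, hJ, hI]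
    have h1 : i * j = i * i * (j * i) := by
      have h2 : j * i = i⁻¹ * j := mul_inv_eq_iff_eq_mul.mp hij
      rw [h2]; group
    calc i * (j * (v.toMul : L) * j⁻¹) * i⁻¹ = (i * j) * (v.toMul : L) * (i * j)⁻¹ := by group
      _ = (i * i * (j * i)) * (v.toMul : L) * (i * i * (j * i))⁻¹ := by rw [h1]
      _ = i * i * (j * (i * (v.toMul : L) * i⁻¹) * j⁻¹) * (i * i)⁻¹ := by group)
  exact h

/-- the kernel is a subgroup -/
theorem exists_kernel {L : Type u} [Group L] [Finite L] {H : Subgroup L} (hF : Cfsg.IsFrobeniusComplement H) :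
    ∃ K : Subgroup L, K.Normal ∧ Subgroup.IsComplement' K H ∧ K ≠ ⊥ ∧ Nat.card K = Nat.card (Cfsg.frobeniusKernel H) ∧
      (∀ h ∈ H, h ≠ 1 → K ⊓ Subgroup.centralizer {h} = ⊥) := by
  obtain ⟨K, hK, hn, hc⟩ := S0035.result H hF
  refine ⟨K, hn, hc, ?_, ?_, ?_⟩
  · rintro rfl
    have h1 := hc.sup_eq_top
    rw [bot_sup_eq] at h1
    exact hF.2.1 h1
  · rw [← hK]; rfl
  · intro h hh h1
    rw [eq_bot_iff]
    intro k hk
    obtain ⟨hkK, hkc⟩ := hk
    have h2 : k * h * k⁻¹ = h := by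
      have := mem_centralizer_singleton_iff.mp hkc
      rw [this, mul_inv_cancel_right]
    have h3 : k ∈ H := Frob.mem_of_conj_mem hF hh h1 (by rw [h2]; exact hh)
    have h4 : k ∈ (K : Set L) := hkK
    rw [hK] at h4
    exact Frob.frobeniusKernel_inter h4 h3

theorem odd_square_kernel {L : Type u} [Group L] [Finite L] {H : Subgroup L} (hF : Cfsg.IsFrobeniusComplement H)
    {i j : L} (hi : i ∈ H) (hi2 : i * i ≠ 1) (hi4 : i * i * (i * i) = 1) (hjj : j * j = i * i)
    (hij : j * i * j⁻¹ = i⁻¹) :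
    Odd (Nat.card (Cfsg.frobeniusKernel H)) ∧ IsSquare (Nat.card (Cfsg.frobeniusKernel H)) := by
  obtain ⟨K, hn, hc, hK0, hcard, hfpf⟩ := exists_kernel hF
  haveI := hn
  have heven : 2 ∣ Nat.card H := by
    have h1 : orderOf (i * i) = 2 := orderOf_eq_prime (by rw [pow_two, hi4]) hi2
    rw [← h1, ← Subgroup.orderOf_mk (i * i) (H.mul_mem hi hi)]
    exact orderOf_dvd_natCard _
  obtain ⟨⟨s, hs, hso, hsu, hsinv⟩, hcomm⟩ := S0068.result K H hc hK0 hfpf heven
  have hcop := Frob.coprime_of_fpf hfpf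
  have hodd : Odd (Nat.card K) := by
    by_contra hne
    rw [Nat.not_odd_iff_even, even_iff_two_dvd] at hne
    have := Nat.Coprime.eq_one_of_dvd (Nat.Coprime.coprime_dvd_left heven hcop) hne
    omega
  have hsi : i * i = s := hsu _ (H.mul_mem hi hi) (orderOf_eq_prime (by rw [pow_two, hi4]) hi2)
  rw [← hcard]
  refine ⟨hodd, square_of_subgroup K hcomm hodd i j ?_ hjj hij⟩
  intro k hk
  rw [hsi]; exact hsinv k hk

theorem quat_rels_in {X : Type u} [Group X] {n : ℕ} (hn : 1 ≤ n) (e : X ≃* QuaternionGroup (2 ^ n)) :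
    ∃ i j : X, i * i ≠ 1 ∧ i * i * (i * i) = 1 ∧ j * j = i * i ∧ j * i * j⁻¹ = i⁻¹ := by
  haveI : NeZero (2 * 2 ^ n) := ⟨by positivity⟩
  obtain ⟨m, rfl⟩ : ∃ m, n = m + 1 := ⟨n - 1, by omega⟩
  have key : ∃ i j : QuaternionGroup (2 ^ (m + 1)), i * i ≠ 1 ∧ i * i * (i * i) = 1 ∧ j * j = i * i ∧ j * i * j⁻¹ = i⁻¹ := by
    refine ⟨.a ((2 ^ m : ℕ)), .xa 0, ?_, ?_, ?_, ?_⟩
    · rw [QuaternionGroup.a_mul_a, ← Nat.cast_add]
      intro h
      have h1 : ((2 ^ m + 2 ^ m : ℕ) : ZMod (2 * 2 ^ (m + 1))) = 0 := by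
        have h2 : QuaternionGroup.a ((2 ^ m + 2 ^ m : ℕ) : ZMod (2 * 2 ^ (m + 1))) = QuaternionGroup.a 0 := h
        injection h2
      rw [ZMod.natCast_eq_zero_iff] at h1
      have h2 := Nat.le_of_dvd (by positivity) h1
      have h3 : 0 < 2 ^ m := by positivity
      rw [pow_succ] at h2
      omega
    · rw [QuaternionGroup.a_mul_a, QuaternionGroup.a_mul_a, ← Nat.cast_add, ← Nat.cast_add]
      have h1 : (((2 ^ m + 2 ^ m) + (2 ^ m + 2 ^ m) : ℕ) : ZMod (2 * 2 ^ (m + 1))) = 0 := by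
        rw [ZMod.natCast_eq_zero_iff]
        refine ⟨1, by rw [pow_succ]; ring⟩
      rw [h1]; rfl
    · rw [QuaternionGroup.a_mul_a, QuaternionGroup.xa_mul_xa, ← Nat.cast_add, add_zero, sub_zero]
      congr 2
      rw [pow_succ]; ring
    · show QuaternionGroup.xa 0 * QuaternionGroup.a ((2 ^ m : ℕ)) * (QuaternionGroup.xa 0)⁻¹ = QuaternionGroup.a (-((2 ^ m : ℕ) : ZMod (2 * 2 ^ (m + 1))))
      have h7 : (QuaternionGroup.xa 0 : QuaternionGroup (2 ^ (m + 1)))⁻¹ =
        QuaternionGroup.xa (((2 ^ (m + 1) : ℕ) : ZMod (2 * 2 ^ (m + 1))) + 0) := rfl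
      rw [h7, QuaternionGroup.xa_mul_a, QuaternionGroup.xa_mul_xa]
      congr 1
      have h8 : ((2 ^ (m + 1) : ℕ) : ZMod (2 * 2 ^ (m + 1))) + ((2 ^ (m + 1) : ℕ) : ZMod (2 * 2 ^ (m + 1))) = 0 := by
        rw [← Nat.cast_add, ZMod.natCast_eq_zero_iff]
        refine ⟨1, by ring⟩
      rw [add_zero, zero_add, h8, zero_sub]
  obtain ⟨i, j, h1, h2, h3, h4⟩ := key
  refine ⟨e.symm i, e.symm j, ?_, ?_, ?_, ?_⟩
  · intro h
    apply h1
    apply e.symm.injective
    rw [map_mul, h, map_one]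
  · rw [← map_mul, ← map_mul, h2, map_one]
  · rw [← map_mul, ← map_mul, h3]
  · rw [← map_mul, ← map_inv, ← map_inv, ← map_mul, h4]

end Cfsg.Agent.FC
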