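import Cfsg.Agent.FC.Struct5
import Cfsg.Agent.FC.Square2

/-!
Linear groups over prime fields, regular on the nonzero vectors.
-/

set_option autoImplicit false
set_option linter.unusedSectionVars false

namespace Cfsg.Agent.FC

open Frob (HasFPFModule IsFPF)
open Subgroup

universe u v

section half

variable {p : ℕ} [hp : Fact p.Prime] {V : Type u} [AddCommGroup V] [Module (ZMod p) V] [Finite V]

/-- quaternion relations split the space into two halves -/
theorem exists_half (hp2 : p ≠ 2) (I J : V →ₗ[ZMod p] V) (hI : ∀ v, I (I v) = -v) (hJ : ∀ v, J (J v) = -v)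
    (hIJ : ∀ v, I (J v) = -J (I v)) :
    ∃ U : Submodule (ZMod p) V, Nat.card V = Nat.card U * Nat.card U ∧
      ∀ C : V →ₗ[ZMod p] V, (∀ v, C (I v) = I (C v)) → (∀ v, C (J v) = J (C v)) → ∀ u ∈ U, C u ∈ U := by
  obtain ⟨a, b, hab⟩ := ZMod.sq_add_sq p (-1)
  have h2 : (2 : ZMod p) ≠ 0 := by
    intro h
    have h3 : ((2 : ℕ) : ZMod p) = 0 := by exact_mod_cast h
    rw [ZMod.natCast_eq_zero_iff] at h3
    exact hp2 ((Nat.prime_dvd_prime_iff_eq hp.out Nat.prime_two).mp h3)
  let T : V →ₗ[ZMod p] V := a • I + b • J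
  have hT : ∀ v, T v = a • I v + b • J v := fun v => rfl
  have hTT : ∀ v, T (T v) = v := by
    intro v
    rw [hT, hT, map_add, map_add, map_smul, map_smul, map_smul, map_smul, hI, hJ, hIJ]
    have h3 : a • (a • -v + b • -J (I v)) + b • (a • J (I v) + b • -v) = -((a ^ 2 + b ^ 2) • v) := by
      module
    rw [h3, hab, neg_smul, one_smul, neg_neg]
  let K : V →ₗ[ZMod p] V := I ∘ₗ J
  have hK : ∀ v, K v = I (J v) := fun v => rfl
  have hKT : ∀ v, T (K v) = -K (T v) := by
    intro v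
    rw [hK, hK, hT, hT, map_add, map_add, map_smul, map_smul, map_smul, map_smul, hI, hJ]
    have h3 : J (I (J v)) = I v := by
      have h4 := hIJ (J v)
      rw [hJ, map_neg] at h4
      exact (neg_injective h4).symm
    have h4 : I (J (I v)) = J v := by
      rw [hIJ, hI, map_neg, neg_neg]
    rw [h3, h4, map_neg]
    module
  let U : Submodule (ZMod p) V := LinearMap.ker (T - LinearMap.id)
  have hU : ∀ v, v ∈ U ↔ T v = v := by
    intro v
    rw [LinearMap.mem_ker, LinearMap.sub_apply, LinearMap.id_apply, sub_eq_zero]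
  have hKK : ∀ v, K (K v) = -v := by
    intro v
    rw [hK, hK]
    have h3 : J (I (J v)) = I v := by
      have h4 := hIJ (J v)
      rw [hJ, map_neg] at h4
      exact (neg_injective h4).symm
    rw [h3, hI]
  have hinj2 : ∀ v : V, (2 : ZMod p) • v = 0 → v = 0 := fun v hv => (smul_eq_zero.mp hv).resolve_left h2
  refine ⟨U, ?_, ?_⟩
  · have hbij : Function.Bijective (fun q : U × U => (q.1 : V) + K (q.2 : V)) := by
      constructor
      · rintro ⟨u, w⟩ ⟨u', w'⟩ h
        have h3 : (u : V) + K w = u' + K w' := h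
        have hu := (hU _).mp u.2
        have hw := (hU _).mp w.2
        have hu' := (hU _).mp u'.2
        have hw' := (hU _).mp w'.2
        have h4 : (u : V) - K w = u' - K w' := by
          have h5 := congrArg T h3
          rw [map_add, map_add, hKT, hKT, hu, hw, hu', hw'] at h5
          rw [sub_eq_add_neg, sub_eq_add_neg]
          exact h5
        have h6 : (u : V) = u' := by
          apply sub_eq_zero.mp
          apply hinj2
          have : (2 : ZMod p) • ((u : V) - u') = ((u + K w) + (u - K w)) - ((u' + K w') + (u' - K w')) := by module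
          rw [this, h3, h4, sub_self]
        have h7 : (w : V) = w' := by
          rw [h6] at h3
          have h8 := congrArg K (add_left_cancel h3)
          rw [hKK, hKK] at h8
          exact neg_injective h8
        exact Prod.ext (Subtype.ext h6) (Subtype.ext h7)
      · intro v
        have hu : (2 : ZMod p)⁻¹ • (v + T v) ∈ U := by
          rw [hU, map_smul, map_add, hTT, add_comm]
        have hw : -((2 : ZMod p)⁻¹ • K (v - T v)) ∈ U := by
          rw [hU, map_neg, map_smul, hKT, map_sub, hTT, smul_neg, neg_neg, ← smul_neg, ← map_neg, neg_sub]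
        refine ⟨(⟨_, hu⟩, ⟨_, hw⟩), ?_⟩
        show (2 : ZMod p)⁻¹ • (v + T v) + K (-((2 : ZMod p)⁻¹ • K (v - T v))) = v
        rw [map_neg, map_smul, hKK]
        have : (2 : ZMod p)⁻¹ • (v + T v) + -((2 : ZMod p)⁻¹ • -(v - T v)) = ((2 : ZMod p)⁻¹ * 2) • v := by module
        rw [this, inv_mul_cancel₀ h2, one_smul]
    rw [← Nat.card_prod]
    exact (Nat.card_congr (Equiv.ofBijective _ hbij)).symm
  · intro C hCI hCJ v hv
    rw [hU] at hv ⊢
    have h1 : C (T v) = T (C v) := by rw [hT, hT, map_add, map_smul, map_smul, hCI, hCJ]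
    rw [← h1, hv]

end half

section near

variable {p : ℕ} [hp : Fact p.Prime] {V : Type u} [AddCommGroup V] [Module (ZMod p) V] [Finite V]
  {H : Subgroup (V ≃ₗ[ZMod p] V)}

instance finite_lin : Finite (V ≃ₗ[ZMod p] V) :=
  Finite.of_injective (fun e : V ≃ₗ[ZMod p] V => (e : V → V)) DFunLike.coe_injective

/-- regular on the nonzero vectors -/
def Reg (H : Subgroup (V ≃ₗ[ZMod p] V)) : Prop :=
  ∀ v w : V, v ≠ 0 → w ≠ 0 → ∃! h : H, (h : V ≃ₗ[ZMod p] V) v = w

theorem Reg.fix (hreg : Reg H) {h : H} {v : V} (hv : v ≠ 0) (hh : (h : V ≃ₗ[ZMod p] V) v = v) : h = 1 :=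
  (hreg v v hv hv).unique hh rfl

theorem Reg.fix' (hreg : Reg H) {h : H} (hh : h ≠ 1) {v : V} (hv : (h : V ≃ₗ[ZMod p] V) v = v) : v = 0 := by
  by_contra h0
  exact hh (hreg.fix h0 hv)

/-- the action on a submodule -/
def subAct (B : Subgroup H) (U : Submodule (ZMod p) V) (hU : ∀ b ∈ B, ∀ u ∈ U, ((b : H) : V ≃ₗ[ZMod p] V) u ∈ U) :
    B →* MulAut (Multiplicative U) where
  toFun b :=
    { toFun := fun u => Multiplicative.ofAdd ⟨((b : H) : V ≃ₗ[ZMod p] V) u.toAdd, hU b b.2 _ u.toAdd.2⟩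
      invFun := fun u => Multiplicative.ofAdd ⟨((b⁻¹ : H) : V ≃ₗ[ZMod p] V) u.toAdd, hU _ (B.inv_mem b.2) _ u.toAdd.2⟩
      left_inv := fun u => by
        apply congrArg Multiplicative.ofAdd
        apply Subtype.ext
        exact LinearEquiv.symm_apply_apply ((b : H) : V ≃ₗ[ZMod p] V) _
      right_inv := fun u => by
        apply congrArg Multiplicative.ofAdd
        apply Subtype.ext
        exact LinearEquiv.apply_symm_apply ((b : H) : V ≃ₗ[ZMod p] V) _
      map_mul' := fun u w => by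
        apply congrArg Multiplicative.ofAdd
        apply Subtype.ext
        exact map_add ((b : H) : V ≃ₗ[ZMod p] V) _ _ }
  map_one' := by
    apply MulEquiv.ext
    intro u
    rfl
  map_mul' b c := by
    apply MulEquiv.ext
    intro u
    rfl

theorem subAct_fpf (hreg : Reg H) (B : Subgroup H) (U : Submodule (ZMod p) V)
    (hU : ∀ b ∈ B, ∀ u ∈ U, ((b : H) : V ≃ₗ[ZMod p] V) u ∈ U) : IsFPF (subAct B U hU) := by
  intro b hb u hu
  have h1 : ((b : H) : V ≃ₗ[ZMod p] V) u.toAdd = u.toAdd := congrArg (fun w : Multiplicative U => (w.toAdd : V)) hu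
  have h2 := hreg.fix' (h := (b : H)) (fun h => hb (Subtype.ext h)) h1
  have h3 : u.toAdd = 0 := Subtype.ext h2
  exact congrArg Multiplicative.ofAdd h3

theorem Reg.card_dvd (hreg : Reg H) (B : Subgroup H) (U : Submodule (ZMod p) V)
    (hU : ∀ b ∈ B, ∀ u ∈ U, ((b : H) : V ≃ₗ[ZMod p] V) u ∈ U) : Nat.card B ∣ Nat.card U - 1 := by
  have h := (subAct_fpf hreg B U hU).card_dvd
  exact h

theorem Reg.hasFPFModule (hreg : Reg H) [Nontrivial V] : HasFPFModule H := by
  have hU : ∀ b ∈ (⊤ : Subgroup H), ∀ u ∈ (⊤ : Submodule (ZMod p) V), ((b : H) : V ≃ₗ[ZMod p] V) u ∈ (⊤ : Submodule (ZMod p) V) :=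
    fun _ _ _ _ => trivial
  refine ⟨Multiplicative (⊤ : Submodule (ZMod p) V), inferInstance, inferInstance, ?_,
    (subAct ⊤ ⊤ hU).comp (Subgroup.topEquiv (G := H)).symm.toMonoidHom,
    (subAct_fpf hreg ⊤ ⊤ hU).comp_injective _ (Subgroup.topEquiv (G := H)).symm.injective⟩
  have : Nontrivial (⊤ : Submodule (ZMod p) V) := Submodule.topEquiv.toEquiv.nontrivial
  exact this

theorem Reg.card (hreg : Reg H) [Nontrivial V] : Nat.card V = Nat.card H + 1 := by
  classical
  obtain ⟨v, hv⟩ := exists_ne (0 : V)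
  have hb : Function.Bijective (fun h : H => (⟨(h : V ≃ₗ[ZMod p] V) v, fun h0 => hv (by
      have := congrArg (h : V ≃ₗ[ZMod p] V).symm h0
      rwa [LinearEquiv.symm_apply_apply, map_zero] at this)⟩ : {w : V // w ≠ 0})) := by
    constructor
    · intro h k hk
      have h1 : (h : V ≃ₗ[ZMod p] V) v = (k : V ≃ₗ[ZMod p] V) v := congrArg Subtype.val hk
      have h2 : (k : V ≃ₗ[ZMod p] V) v ≠ 0 := fun h0 => hv (by
        have := congrArg (k : V ≃ₗ[ZMod p] V).symm h0
        rwa [LinearEquiv.symm_apply_apply, map_zero] at this)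
      exact (hreg v _ hv h2).unique h1 rfl
    · rintro ⟨w, hw⟩
      obtain ⟨h, hh, -⟩ := hreg v w hv hw
      exact ⟨h, Subtype.ext hh⟩
  have : Fintype V := Fintype.ofFinite V
  rw [Nat.card_congr (Equiv.ofBijective _ hb), Nat.card_eq_fintype_card, Nat.card_eq_fintype_card]
  rw [Fintype.card_subtype_compl, Fintype.card_subtype_eq]
  have := Fintype.card_pos (α := V)
  omega

/-- elements preserving a submodule of prime order commute -/
theorem Reg.comm_of_prime (hreg : Reg H) (U : Submodule (ZMod p) V) (hU : (Nat.card U).Prime) {b c : H}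
    (hb : ∀ u ∈ U, (b : V ≃ₗ[ZMod p] V) u ∈ U) (hc : ∀ u ∈ U, (c : V ≃ₗ[ZMod p] V) u ∈ U) : b * c = c * b := by
  haveI : Fact (Nat.card U).Prime := ⟨hU⟩
  haveI : Nontrivial U := Finite.one_lt_card_iff_nontrivial.mp hU.one_lt
  obtain ⟨u, hu⟩ := exists_ne (0 : U)
  have hgen : ∀ w : U, ∃ k : ℤ, k • u = w := by
    intro w
    exact AddSubgroup.mem_zmultiples_iff.mp (mem_zmultiples_of_prime_card rfl hu)
  obtain ⟨k, hk⟩ := hgen ⟨_, hb u u.2⟩
  obtain ⟨l, hl⟩ := hgen ⟨_, hc u u.2⟩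
  have hk' : (b : V ≃ₗ[ZMod p] V) u = k • (u : V) := (congrArg Subtype.val hk).symm
  have hl' : (c : V ≃ₗ[ZMod p] V) u = l • (u : V) := (congrArg Subtype.val hl).symm
  have h1 : ((b * c : H) : V ≃ₗ[ZMod p] V) u = (k * l) • (u : V) := by
    show (b : V ≃ₗ[ZMod p] V) ((c : V ≃ₗ[ZMod p] V) u) = _
    rw [hl', map_zsmul, hk', smul_smul, mul_comm]
  have h2 : ((c * b : H) : V ≃ₗ[ZMod p] V) u = (k * l) • (u : V) := by
    show (c : V ≃ₗ[ZMod p] V) ((b : V ≃ₗ[ZMod p] V) u) = _
    rw [hk', map_zsmul, hl', smul_smul]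
  have h3 : (u : V) ≠ 0 := fun h => hu (Subtype.ext h)
  have h4 : ((b * c : H) : V ≃ₗ[ZMod p] V) u ≠ 0 := fun h0 => h3 (by
    have := congrArg ((b * c : H) : V ≃ₗ[ZMod p] V).symm h0
    rwa [LinearEquiv.symm_apply_apply, map_zero] at this)
  exact (hreg u _ h3 h4).unique rfl (h2.trans h1.symm)

/-- the quaternion group and the half space -/
theorem Reg.exists_half (hreg : Reg H) [Nontrivial V] {i j : H} (hi2 : i * i ≠ 1) (hi4 : i * i * (i * i) = 1)
    (hjj : j * j = i * i) (hij : j * i * j⁻¹ = i⁻¹) :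
    ∃ U : Submodule (ZMod p) V, Nat.card V = Nat.card U * Nat.card U ∧
      ∀ c : H, c * i = i * c → c * j = j * c → ∀ u ∈ U, (c : V ≃ₗ[ZMod p] V) u ∈ U := by
  have hz : ∀ v : V, ((i * i : H) : V ≃ₗ[ZMod p] V) v = -v := by
    intro v
    have h1 : ((i * i : H) : V ≃ₗ[ZMod p] V) (((i * i : H) : V ≃ₗ[ZMod p] V) v + v) = ((i * i : H) : V ≃ₗ[ZMod p] V) v + v := by
      rw [map_add]
      have h2 : ((i * i : H) : V ≃ₗ[ZMod p] V) (((i * i : H) : V ≃ₗ[ZMod p] V) v) = v := by
        have h3 : ((i * i * (i * i) : H) : V ≃ₗ[ZMod p] V) v = v := by rw [hi4]; rfl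
        exact h3
      rw [h2, add_comm]
    exact eq_neg_of_add_eq_zero_left (hreg.fix' hi2 h1)
  have hp2 : p ≠ 2 := by
    rintro rfl
    apply hi2
    obtain ⟨v, hv⟩ := exists_ne (0 : V)
    apply hreg.fix hv
    rw [hz v]
    have h1 : (2 : ZMod 2) • v = 0 := by
      have : (2 : ZMod 2) = 0 := rfl
      rw [this, zero_smul]
    rw [two_smul] at h1
    exact neg_eq_of_add_eq_zero_left h1
  obtain ⟨U, hU, hC⟩ := FC.exists_half hp2 (V := V) ((i : V ≃ₗ[ZMod p] V) : V →ₗ[ZMod p] V) ((j : V ≃ₗ[ZMod p] V) : V →ₗ[ZMod p] V)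
    (fun v => hz v) (fun v => by
      have h1 : ((j * j : H) : V ≃ₗ[ZMod p] V) v = -v := by rw [hjj]; exact hz v
      exact h1) (fun v => by
      have h1 : i * j = (i * i) * (j * i) := by
        have h2 : j * i = i⁻¹ * j := by rw [← hij]; group
        rw [h2]
        have h3 : i⁻¹ = i * i * i := by
          rw [inv_eq_iff_mul_eq_one]
          rw [← hi4]; group
        rw [h3]
        have h4 : i * i * (i * i * i * j) = (i * i * (i * i)) * (i * j) := by group
        rw [h4, hi4, one_mul]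
      have h2 : ((i * j : H) : V ≃ₗ[ZMod p] V) v = ((i * i : H) : V ≃ₗ[ZMod p] V) (((j * i : H) : V ≃ₗ[ZMod p] V) v) := by
        rw [h1]; rfl
      rw [hz] at h2
      exact h2)
  refine ⟨U, hU, ?_⟩
  intro c hci hcj u hu
  refine hC ((c : V ≃ₗ[ZMod p] V) : V →ₗ[ZMod p] V) (fun v => ?_) (fun v => ?_) u hu
  · have h1 : ((c * i : H) : V ≃ₗ[ZMod p] V) v = ((i * c : H) : V ≃ₗ[ZMod p] V) v := by rw [hci]
    exact h1
  · have h1 : ((c * j : H) : V ≃ₗ[ZMod p] V) v = ((j * c : H) : V ≃ₗ[ZMod p] V) v := by rw [hcj]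
    exact h1

end near

end Cfsg.Agent.FC
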