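import Cfsg.Agent.FC.Near1
import Cfsg.Agent.FC.Struct1
import Mathlib.GroupTheory.SpecificGroups.ZGroup

/-!
Minimal non-abelian normal subgroups centralising a maximal abelian normal subgroup.
-/

set_option autoImplicit false
set_option linter.unusedSectionVars false

namespace Cfsg.Agent.FC

open Frob (HasFPFModule IsFPF)
open S3378 (SL5)
open Subgroup

universe u v

variable {G : Type u} [Group G] [Finite G]

theorem isMulCommutative_iff_comm {B : Subgroup G} : IsMulCommutative B ↔ ∀ a ∈ B, ∀ b ∈ B, a * b = b * a := by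
  constructor
  · intro h a ha b hb
    exact congrArg Subtype.val (h.is_comm.comm ⟨a, ha⟩ ⟨b, hb⟩)
  · intro h
    exact ⟨⟨fun a b => Subtype.ext (h a a.2 b b.2)⟩⟩

theorem quat_one_comm : ∀ x y : QuaternionGroup (2 ^ 0), x * y = y * x := by
  decide

theorem quat_class_two {n : ℕ} (hn : 2 ≤ n) :
    ∃ x y z : QuaternionGroup (2 ^ n), (x * y * x⁻¹ * y⁻¹) * z ≠ z * (x * y * x⁻¹ * y⁻¹) := by
  have hne : NeZero (2 ^ n) := ⟨by positivity⟩
  have hne2 : NeZero (2 * 2 ^ n) := ⟨by positivity⟩
  refine ⟨.a 1, .xa 0, .xa 0, ?_⟩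
  have h7 : (QuaternionGroup.xa 0 : QuaternionGroup (2 ^ n))⁻¹ =
        QuaternionGroup.xa (((2 ^ n : ℕ) : ZMod (2 * 2 ^ n)) + 0) := rfl
  have h8 : (QuaternionGroup.a 1 : QuaternionGroup (2 ^ n))⁻¹ = QuaternionGroup.a (-1) := rfl
  have h9 : (((2 ^ n : ℕ) : ZMod (2 * 2 ^ n)) + ((2 ^ n : ℕ) : ZMod (2 * 2 ^ n))) = 0 := by
    rw [← Nat.cast_add, ← two_mul]
    exact ZMod.natCast_self _
  have h1 : (QuaternionGroup.a 1 * QuaternionGroup.xa 0 * (QuaternionGroup.a 1)⁻¹ * (QuaternionGroup.xa 0)⁻¹ :
      QuaternionGroup (2 ^ n)) = QuaternionGroup.a 2 := by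
    rw [h7, h8, QuaternionGroup.a_mul_xa, QuaternionGroup.xa_mul_a, QuaternionGroup.xa_mul_xa]
    congr 1
    calc (((2 ^ n : ℕ) : ZMod (2 * 2 ^ n)) + (((2 ^ n : ℕ) : ZMod (2 * 2 ^ n)) + 0) - (0 - 1 + -1)) =
      (((2 ^ n : ℕ) : ZMod (2 * 2 ^ n)) + ((2 ^ n : ℕ) : ZMod (2 * 2 ^ n))) + 2 := by ring
      _ = 2 := by rw [h9, zero_add]
  rw [h1, QuaternionGroup.a_mul_xa, QuaternionGroup.xa_mul_a]
  intro h
  have h2 : (0 : ZMod (2 * 2 ^ n)) - 2 = 0 + 2 := by injection h
  have h3 : ((4 : ℕ) : ZMod (2 * 2 ^ n)) = 0 := by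
    have : (4 : ZMod (2 * 2 ^ n)) = (0 + 2) - (0 - 2) := by ring
    have h4 : (4 : ZMod (2 * 2 ^ n)) = 0 := by rw [this, h2, sub_self]
    exact_mod_cast h4
  rw [ZMod.natCast_eq_zero_iff] at h3
  have h4 : 2 * 2 ^ 2 ≤ 2 * 2 ^ n := Nat.mul_le_mul_left _ (Nat.pow_le_pow_right (by norm_num) hn)
  have h5 := Nat.le_of_dvd (by norm_num) h3
  omega

theorem near_min (h : HasFPFModule G) (A : Subgroup G) (hAn : A.Normal) (hAc : IsMulCommutative A)
    (hAmax : ∀ B : Subgroup G, B.Normal → IsMulCommutative B → A ≤ B → B = A) (N : Subgroup G) (hNn : N.Normal)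
    (hNle : N ≤ Subgroup.centralizer (A : Set G)) (hNna : ¬ IsMulCommutative N)
    (hNmin : ∀ M : Subgroup G, M.Normal → M ≤ N → ¬ IsMulCommutative M → M = N) :
    Nonempty (N ≃* QuaternionGroup 2) ∨ (¬ Group.IsSolvable N ∧ Nonempty (N ≃* SL5)) := by
  haveI := hNn
  haveI : Fact (Nat.Prime 2) := ⟨Nat.prime_two⟩
  have hchar : ∀ K : Subgroup N, K.Characteristic → ¬ IsMulCommutative K → K = ⊤ := by
    intro K hK hKc
    have h1 : (K.map N.subtype).Normal := inferInstance
    have h2 : K.map N.subtype ≤ N := Subgroup.map_subtype_le K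
    have h3 : ¬ IsMulCommutative (K.map N.subtype) := by
      intro hc
      apply hKc
      rw [isMulCommutative_iff_comm] at hc ⊢
      intro a ha b hb
      exact Subtype.ext (hc a ⟨a, ha, rfl⟩ b ⟨b, hb, rfl⟩)
    have h4 := hNmin _ h1 h2 h3
    rw [eq_top_iff]
    intro x _
    have h5 : (x : G) ∈ K.map N.subtype := by rw [h4]; exact x.2
    obtain ⟨y, hy, hyx⟩ := h5
    have : y = x := Subtype.ext hyx
    rwa [← this]
  by_cases hs : Group.IsSolvable N
  · left
    -- commutator subgroup
    have hD : IsMulCommutative (commutator N) := by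
      by_contra hc
      have h1 := hchar _ inferInstance hc
      haveI : Nontrivial N := by
        by_contra hnt
        rw [not_nontrivial_iff_subsingleton] at hnt
        exact hNna ⟨⟨fun a b => Subsingleton.elim _ _⟩⟩
      have h2 := Group.IsSolvable.commutator_lt_top_of_nontrivial N
      rw [h1] at h2
      exact lt_irrefl _ h2
    set D := (commutator N).map N.subtype with hDdef
    have hDn : D.Normal := inferInstance
    have hDN : D ≤ N := Subgroup.map_subtype_le _
    have hDc : ∀ a ∈ D, ∀ b ∈ D, a * b = b * a := by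
      rintro _ ⟨a, ha, rfl⟩ _ ⟨b, hb, rfl⟩
      exact congrArg Subtype.val (isMulCommutative_iff_comm.mp hD a ha b hb)
    have hAD : ∀ a ∈ A, ∀ d ∈ N, a * d = d * a := fun a ha d hd => (mem_centralizer_iff.mp (hNle hd) a ha)
    have hsup : IsMulCommutative (A ⊔ D : Subgroup G) := by
      rw [isMulCommutative_iff_comm]
      intro x hx y hy
      rw [← SetLike.mem_coe, Subgroup.normal_mul] at hx hy
      obtain ⟨a, ha, d, hd, rfl⟩ := Set.mem_mul.mp hx
      obtain ⟨b, hb, e, he, rfl⟩ := Set.mem_mul.mp hy
      have e1 : a * b = b * a := isMulCommutative_iff_comm.mp hAc a ha b hb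
      have e2 : d * e = e * d := hDc d hd e he
      have e3 : b * d = d * b := hAD b hb d (hDN hd)
      have e4 : a * e = e * a := hAD a ha e (hDN he)
      calc a * d * (b * e) = a * (d * b) * e := by group
        _ = (a * b) * (d * e) := by rw [← e3]; group
        _ = b * (a * e) * d := by rw [e1, e2]; group
        _ = b * e * (a * d) := by rw [e4]; group
    have hDA : D ≤ A := by
      have h1 := hAmax (A ⊔ D) inferInstance hsup le_sup_left
      rw [← h1]
      exact le_sup_right
    -- commutators are central in N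
    have hcen : ∀ x y z : N, (x * y * x⁻¹ * y⁻¹) * z = z * (x * y * x⁻¹ * y⁻¹) := by
      intro x y z
      apply Subtype.ext
      have h1 : ((x * y * x⁻¹ * y⁻¹ : N) : G) ∈ D := ⟨_, Subgroup.commutator_mem_commutator (mem_top x) (mem_top y), rfl⟩
      exact hAD _ (hDA h1) z z.2
    have hcen' : commutator N ≤ center N := by
      rw [_root_.commutator_def, Subgroup.commutator_le]
      intro x _ y _
      rw [mem_center_iff]
      intro z
      exact (hcen x y z).symm
    haveI hnil : Group.IsNilpotent N := by
      have h1 : Group.IsNilpotent (N ⧸ center N) := by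
        have h2 : ∀ a b : N ⧸ center N, a * b = b * a := by
          intro a b
          obtain ⟨a, rfl⟩ := QuotientGroup.mk_surjective a
          obtain ⟨b, rfl⟩ := QuotientGroup.mk_surjective b
          rw [← QuotientGroup.mk_mul, ← QuotientGroup.mk_mul, QuotientGroup.eq_iff_div_mem]
          apply hcen'
          have h3 : a * b / (b * a) = a * b * a⁻¹ * b⁻¹ := by rw [div_eq_mul_inv]; group
          rw [h3]
          exact Subgroup.commutator_mem_commutator (mem_top a) (mem_top b)
        letI : CommGroup (N ⧸ center N) := { (inferInstance : Group (N ⧸ center N)) with mul_comm := h2 }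
        exact inferInstance
      exact Group.of_quotient_center_nilpotent h1
    have hP2 : IsPGroup 2 N := by
      let P : Sylow 2 N := default
      by_cases hPc : IsMulCommutative (P : Subgroup N)
      · exfalso
        apply hNna
        have hz : IsZGroup N := by
          constructor
          intro q hq Q
          haveI : Fact q.Prime := ⟨hq⟩
          rcases psub (h.subgroup N) Q.2 with hc | ⟨rfl, -⟩
          · exact hc
          · have h1 : IsMulCommutative (Q : Subgroup N) := by
              have e := P.equiv Q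
              rw [isMulCommutative_iff_comm] at hPc ⊢
              intro a ha b hb
              obtain ⟨a', ha'⟩ := e.surjective ⟨a, ha⟩
              obtain ⟨b', hb'⟩ := e.surjective ⟨b, hb⟩
              have h2 : a' * b' = b' * a' := Subtype.ext (hPc a' a'.2 b' b'.2)
              have h3 := congrArg e h2
              rw [map_mul, map_mul, ha', hb'] at h3
              exact congrArg Subtype.val h3
            exact ((h.subgroup N).subgroup (Q : Subgroup N)).isCyclic_of_isMulCommutative
        haveI := hz
        have hcyc : IsCyclic N := inferInstance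
        letI := hcyc.commGroup
        exact ⟨⟨fun a b => (IsCyclic.commGroup (α := N)).mul_comm a b⟩⟩
      · have hPn : (P : Subgroup N).Normal := by
          have h1 := Group.isNilpotent_of_finite_tfae (G := N)
          have h2 := (h1.out 0 3).mp hnil
          exact h2 2 inferInstance P
        have hPch : (P : Subgroup N).Characteristic := Sylow.characteristic_of_normal P hPn
        have h1 := hchar _ hPch hPc
        have h2 := P.2
        rw [show (P.toSubgroup) = ⊤ from h1] at h2
        exact h2.of_equiv Subgroup.topEquiv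
    have h2 : IsPGroup 2 (⊤ : Subgroup N) := hP2.of_equiv Subgroup.topEquiv.symm
    rcases psub (h.subgroup N) h2 with hc | ⟨-, n, ⟨e⟩⟩
    · exfalso
      apply hNna
      have h3 := (isCyclic_of_surjective Subgroup.topEquiv.toMonoidHom (Subgroup.topEquiv (G := N)).surjective)
      exact ⟨⟨fun a b => (IsCyclic.commGroup (α := N)).mul_comm a b⟩⟩
    · have e' : N ≃* QuaternionGroup (2 ^ n) := Subgroup.topEquiv.symm.trans e
      rcases n with _ | _ | n
      · exfalso
        apply hNna
        refine ⟨⟨fun a b => e'.injective ?_⟩⟩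
        rw [map_mul, map_mul]
        exact quat_one_comm _ _
      · exact ⟨e'⟩
      · exfalso
        obtain ⟨x, y, z, hxyz⟩ := quat_class_two (n := n + 1 + 1) (by omega)
        apply hxyz
        have h3 := congrArg e' (hcen (e'.symm x) (e'.symm y) (e'.symm z))
        simpa only [map_mul, map_inv, MulEquiv.apply_symm_apply] using h3
  · right
    refine ⟨hs, ?_⟩
    obtain ⟨e⟩ := K3_iso_of_not_solvable (h.subgroup N) hs
    have h1 : ¬ IsMulCommutative (K3 N) := by
      intro hc
      apply sl5_not_solvable
      have h2 : ∀ a b : SL5, a * b = b * a := by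
        intro a b
        have h3 := hc.is_comm.comm (e.symm a) (e.symm b)
        have h4 := congrArg e h3
        simpa only [map_mul, MulEquiv.apply_symm_apply] using h4
      exact Group.isSolvable_of_comm h2
    have h2 := hchar _ inferInstance h1
    rw [h2] at e
    exact ⟨Subgroup.topEquiv.symm.trans e⟩

end Cfsg.Agent.FC
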