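import Cfsg.Agent.FC.Near2

/-!
Numerical consequences for regular linear groups.
-/

set_option autoImplicit false
set_option linter.unusedSectionVars false

namespace Cfsg.Agent.FC

open Frob (HasFPFModule IsFPF)
open S3378 (SL5)
open Subgroup

universe u v

section idx

variable {G : Type u} [Group G] [Finite G]

theorem index_quat (N : Subgroup G) [N.Normal] (e : N ≃* QuaternionGroup 2) :
    (centralizer (N : Set G)).index ∣ 24 := by
  set f : G →* MulAut N := MulAut.conjNormal with hf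
  have hker : f.ker = centralizer (N : Set G) := by
    ext g
    rw [MonoidHom.mem_ker, mem_centralizer_iff]
    constructor
    · intro h1 x hx
      have h2 : f g ⟨x, hx⟩ = ⟨x, hx⟩ := by rw [h1]; rfl
      have h3 := congrArg Subtype.val h2
      rw [hf, MulAut.conjNormal_apply] at h3
      exact (mul_inv_eq_iff_eq_mul.mp h3).symm
    · intro h1
      apply MulEquiv.ext
      intro x
      apply Subtype.ext
      rw [hf, MulAut.conjNormal_apply]
      exact mul_inv_eq_iff_eq_mul.mpr (h1 x x.2).symm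
  rw [← hker, Subgroup.index_ker]
  have h1 := Subgroup.card_subgroup_dvd_card f.range
  obtain ⟨e2⟩ := S3742.result
  have h2 : Nat.card (MulAut N) = 24 := by
    rw [Nat.card_congr ((MulAut.congr e).trans e2).toEquiv, Nat.card_eq_fintype_card, Fintype.card_perm]
    rfl
  rwa [h2] at h1

theorem index_sl5 (N : Subgroup G) [N.Normal] (e : N ≃* SL5) :
    (centralizer (N : Set G)).index ∣ 120 := by
  obtain ⟨Ψ, hker, -⟩ := exists_hom_perm5 N e
  rw [← hker, Subgroup.index_ker]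
  have h1 := Subgroup.card_subgroup_dvd_card Ψ.range
  have h2 : Nat.card (Equiv.Perm (Fin 5)) = 120 := by
    rw [Nat.card_eq_fintype_card, Fintype.card_perm]
    rfl
  rwa [h2] at h1

theorem quat_rels_sl5 : ∃ i j : SL5, i * i ≠ 1 ∧ i * i * (i * i) = 1 ∧ j * j = i * i ∧ j * i * j⁻¹ = i⁻¹ :=
  ⟨⟨!![0, 1; -1, 0], by decide +kernel⟩, ⟨!![2, 0; 0, 3], by decide +kernel⟩, by decide +kernel, by decide +kernel,
    by decide +kernel, by decide +kernel⟩

theorem quat_rels_of_equiv {X : Type u} {Y : Type v} [Group X] [Group Y] (e : X ≃* Y)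
    (h : ∃ i j : Y, i * i ≠ 1 ∧ i * i * (i * i) = 1 ∧ j * j = i * i ∧ j * i * j⁻¹ = i⁻¹) :
    ∃ i j : X, i * i ≠ 1 ∧ i * i * (i * i) = 1 ∧ j * j = i * i ∧ j * i * j⁻¹ = i⁻¹ := by
  obtain ⟨i, j, h1, h2, h3, h4⟩ := h
  refine ⟨e.symm i, e.symm j, ?_, ?_, ?_, ?_⟩
  · intro h5
    apply h1
    apply e.symm.injective
    rw [map_mul, h5, map_one]
  · rw [← map_mul, ← map_mul, h2, map_one]
  · rw [← map_mul, ← map_mul, h3]
  · rw [← map_mul, ← map_inv, ← map_mul, h4, map_inv]

end idx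

theorem num24 {q : ℕ} (hq : 1 < q) (h : q + 1 ∣ 24) : q.Prime := by
  have h1 := Nat.le_of_dvd (by norm_num) h
  have h2 : q ≤ 23 := by omega
  have h3 : ∀ m < 24, 1 < m → m + 1 ∣ 24 → m.Prime := by decide +kernel
  exact h3 q (by omega) hq h

theorem num120 {p q k : ℕ} (hp : p.Prime) (hk : q = p ^ k) (hq : 1 < q) (h : q + 1 ∣ 240) (h2 : 120 ∣ q * q - 1)
    (h3 : ¬ 4 ∣ (q * q - 1) / 120) :
    q = 11 ∨ q = 19 ∨ q = 29 ∨ q = 59 := by
  have h119 : q ≠ 119 := by
    intro hq119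
    rw [hq119] at hk
    have h7 : 7 ∣ p ^ k := by rw [← hk]; norm_num
    have h17 : 17 ∣ p ^ k := by rw [← hk]; norm_num
    have e7 := (Nat.prime_dvd_prime_iff_eq (by norm_num) hp).mp ((by norm_num : Nat.Prime 7).dvd_of_dvd_pow h7)
    have e17 := (Nat.prime_dvd_prime_iff_eq (by norm_num) hp).mp ((by norm_num : Nat.Prime 17).dvd_of_dvd_pow h17)
    omega
  have h1 : q + 1 ∈ Nat.divisors 240 := Nat.mem_divisors.mpr ⟨h, by norm_num⟩
  have h4 : ∀ m ∈ Nat.divisors 240, 2 < m → m ≠ 120 → 120 ∣ (m - 1) * (m - 1) - 1 → ¬ 4 ∣ ((m - 1) * (m - 1) - 1) / 120 →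
      m = 12 ∨ m = 20 ∨ m = 30 ∨ m = 60 := by decide +kernel
  have h5 := h4 (q + 1) h1 (by omega) (by omega) (by simpa using h2) (by simpa using h3)
  omega

section near

variable {p : ℕ} [hp : Fact p.Prime] {V : Type u} [AddCommGroup V] [Module (ZMod p) V] [Finite V]
  {H : Subgroup (V ≃ₗ[ZMod p] V)}

theorem card_submodule (U : Submodule (ZMod p) V) : ∃ k, Nat.card U = p ^ k :=
  ⟨Module.finrank (ZMod p) U, by rw [Module.natCard_eq_pow_finrank (K := ZMod p), Nat.card_zmod]⟩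

theorem Reg.half_of_normal (hreg : Reg H) [Nontrivial V] (N : Subgroup H) {i j : H} (hi : i ∈ N) (hj : j ∈ N)
    (hi2 : i * i ≠ 1) (hi4 : i * i * (i * i) = 1)
    (hjj : j * j = i * i) (hij : j * i * j⁻¹ = i⁻¹) :
    ∃ U : Submodule (ZMod p) V, Nat.card V = Nat.card U * Nat.card U ∧ 1 < Nat.card U ∧
      (∀ c ∈ centralizer (N : Set H), ∀ u ∈ U, ((c : H) : V ≃ₗ[ZMod p] V) u ∈ U) ∧
      Nat.card H = Nat.card U * Nat.card U - 1 ∧
      ∀ M ≤ centralizer (N : Set H), Nat.card U + 1 ∣ M.index := by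
  obtain ⟨U, hU, hC⟩ := hreg.exists_half hi2 hi4 hjj hij
  have h1 : 1 < Nat.card U := by
    have h2 := Finite.one_lt_card (α := V)
    rw [hU] at h2
    by_contra h3
    have h4 : Nat.card U ≤ 1 := by omega
    have h5 := Nat.mul_le_mul h4 h4
    omega
  have h2 : ∀ c ∈ centralizer (N : Set H), ∀ u ∈ U, ((c : H) : V ≃ₗ[ZMod p] V) u ∈ U :=
    fun c hc => hC c (mem_centralizer_iff.mp hc i hi).symm (mem_centralizer_iff.mp hc j hj).symm
  have h3 := hreg.card
  refine ⟨U, hU, h1, h2, by omega, ?_⟩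
  intro M hM
  have h4 := hreg.card_dvd M U (fun b hb => h2 b (hM hb))
  obtain ⟨t, ht⟩ := h4
  have h5 := M.card_mul_index
  have h6 : 0 < Nat.card M := Nat.card_pos
  refine ⟨t, Nat.eq_of_mul_eq_mul_left h6 ?_⟩
  rw [h5]
  have h7 : Nat.card H = (Nat.card U + 1) * (Nat.card U - 1) := by
    obtain ⟨m, hm⟩ : ∃ m, Nat.card U = m + 1 := ⟨Nat.card U - 1, by omega⟩
    rw [hm] at hU ⊢
    have h8 : Nat.card H = (m + 1) * (m + 1) - 1 := by omega
    rw [h8, Nat.add_sub_cancel]
    have h9 : (m + 1) * (m + 1) = (m + 1 + 1) * m + 1 := by ring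
    rw [h9, Nat.add_sub_cancel]
  rw [h7, ht]
  ring

/-- submodules of size other than 1 and the whole have prime order -/
theorem Reg.comm_of_invariant (hreg : Reg H) {q : ℕ} (hq : q.Prime) (hV : Nat.card V = q * q) (N : Subgroup H)
    (W : Submodule (ZMod p) V) (hW : ∀ n ∈ N, ∀ v ∈ W, ((n : H) : V ≃ₗ[ZMod p] V) v ∈ W) (h0 : W ≠ ⊥) (h1 : W ≠ ⊤) :
    IsMulCommutative N := by
  have h2 : Nat.card W ∣ q * q := by
    rw [← hV]
    exact AddSubgroup.card_addSubgroup_dvd_card W.toAddSubgroup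
  have h3 : Nat.card W = q := by
    rw [← pow_two] at h2
    obtain ⟨k, hk, hk2⟩ := (Nat.dvd_prime_pow hq).mp h2
    rcases k with _ | _ | _ | k
    · exfalso
      apply h0
      rw [pow_zero] at hk2
      rw [Submodule.eq_bot_iff]
      intro x hx
      have h4 : Subsingleton W := (Nat.card_eq_one_iff_unique.mp hk2).1
      exact congrArg Subtype.val (Subsingleton.elim (⟨x, hx⟩ : W) 0)
    · rw [hk2, zero_add, pow_one]
    · exfalso
      apply h1
      rw [zero_add] at hk2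
      have h4 : W.toAddSubgroup = ⊤ := by
        apply AddSubgroup.eq_top_of_card_eq
        have h5 : Nat.card W = Nat.card V := by rw [hk2, hV]; ring
        exact h5
      rw [eq_top_iff]
      intro x _
      have h5 : x ∈ W.toAddSubgroup := by rw [h4]; trivial
      exact h5
    · omega
  rw [isMulCommutative_iff_comm]
  intro a ha b hb
  exact hreg.comm_of_prime W (by rw [h3]; exact hq) (hW a ha) (hW b hb)

theorem near_irred (hreg : Reg H) [Nontrivial V] (A : Subgroup H) (hAn : A.Normal)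
    (hAmax : ∀ B : Subgroup H, B.Normal → IsMulCommutative B → A ≤ B → B = A) (N : Subgroup H) (hNn : N.Normal)
    (hNle : N ≤ Subgroup.centralizer (A : Set H)) (hNna : ¬ IsMulCommutative N)
    (hN : Nonempty (N ≃* QuaternionGroup 2) ∨ Nonempty (N ≃* SL5)) :
    ∃ q : ℕ, q.Prime ∧ Nat.card V = q * q ∧ (Nonempty (N ≃* QuaternionGroup 2) → q + 1 ∣ 24) ∧
      (∀ W : Submodule (ZMod p) V, (∀ n ∈ N, ∀ v ∈ W, ((n : H) : V ≃ₗ[ZMod p] V) v ∈ W) → W = ⊥ ∨ W = ⊤) ∧
      Subgroup.centralizer (N : Set H) = A := by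
  haveI := hNn
  have hrel : ∃ i j : N, i * i ≠ 1 ∧ i * i * (i * i) = 1 ∧ j * j = i * i ∧ j * i * j⁻¹ = i⁻¹ := by
    rcases hN with ⟨⟨e⟩⟩ | ⟨⟨e⟩⟩
    · exact quat_rels_in (n := 1) le_rfl e
    · exact quat_rels_of_equiv e quat_rels_sl5
  obtain ⟨i, j, hi2, hi4, hjj, hij⟩ := hrel
  obtain ⟨U, hU, hU1, hUC, hcard, hidx⟩ := hreg.half_of_normal N i.2 j.2 (fun h => hi2 (Subtype.ext h))
    (congrArg Subtype.val hi4) (congrArg Subtype.val hjj) (congrArg Subtype.val hij)
  have hidx' := hidx _ le_rfl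
  have hprime : (Nat.card U).Prime := by
    rcases hN with ⟨⟨e⟩⟩ | ⟨⟨e⟩⟩
    · exact num24 hU1 (hidx'.trans (index_quat N e))
    · obtain ⟨k, hk⟩ := card_submodule U
      have h120 : Nat.card N = 120 := by rw [Nat.card_congr e.toEquiv]; exact S3378.card_SL5
      have h1 : 120 ∣ Nat.card U * Nat.card U - 1 := by
        rw [← hcard, ← h120]; exact Subgroup.card_subgroup_dvd_card N
      have h2 := hidx'.trans (index_sl5 N e)
      have h3 : ¬ 4 ∣ (Nat.card U * Nat.card U - 1) / 120 ∨ Nat.card U ≤ 7 := by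
        by_contra hcon
        push Not at hcon
        have h4 : Nat.card U + 1 ∈ Nat.divisors 120 := Nat.mem_divisors.mpr ⟨h2, by norm_num⟩
        have h5 : ∀ m ∈ Nat.divisors 120, 8 < m → ¬ (4 ∣ ((m - 1) * (m - 1) - 1) / 120 ∧ 120 ∣ (m - 1) * (m - 1) - 1) := by
          decide +kernel
        exact h5 _ h4 (by omega) ⟨by simpa using hcon.1, by simpa using h1⟩
      rcases h3 with h3 | h3
      · rcases num120 hp.out hk hU1 (h2.trans (by norm_num)) h1 h3 with h | h | h | h <;> rw [h] <;> norm_num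
      · exfalso
        have h4 : Nat.card U * Nat.card U ≤ 7 * 7 := Nat.mul_le_mul h3 h3
        have h5 := Nat.le_of_dvd (by
          have := Nat.mul_le_mul hU1 hU1
          omega) h1
        omega
  refine ⟨Nat.card U, hprime, hU, ?_, ?_, ?_⟩
  · rintro ⟨e⟩
    exact hidx'.trans (index_quat N e)
  · intro W hW
    by_contra hcon
    push Not at hcon
    exact hNna (hreg.comm_of_invariant hprime hU N W hW hcon.1 hcon.2)
  · apply hAmax
    · infer_instance
    · rw [isMulCommutative_iff_comm]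
      intro a ha b hb
      exact hreg.comm_of_prime U hprime (hUC a ha) (hUC b hb)
    · intro a ha
      rw [mem_centralizer_iff]
      intro n hn
      exact (mem_centralizer_iff.mp (hNle hn) a ha).symm

end near

end Cfsg.Agent.FC
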