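import Cfsg.Agent.FC.Near3

/-!
Existence of the non-abelian centraliser in regular linear groups.
-/

set_option autoImplicit false
set_option linter.unusedSectionVars false

namespace Cfsg.Agent.FC

open Frob (HasFPFModule IsFPF)
open S3378 (SL5)
open Subgroup

universe u v

theorem exists_max_abelian {G : Type u} [Group G] [Finite G] :
    ∃ A : Subgroup G, A.Normal ∧ IsMulCommutative A ∧
      ∀ B : Subgroup G, B.Normal → IsMulCommutative B → A ≤ B → B = A := by
  have hne : ({A : Subgroup G | A.Normal ∧ IsMulCommutative A}).Nonempty :=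
    ⟨⊥, inferInstance, inferInstance⟩
  obtain ⟨A, hA⟩ := (Set.toFinite {A : Subgroup G | A.Normal ∧ IsMulCommutative A}).exists_maximal hne
  refine ⟨A, hA.1.1, hA.1.2, ?_⟩
  intro B hB hBc hAB
  exact le_antisymm (hA.2 ⟨hB, hBc⟩ hAB) hAB

theorem exists_min_nonabelian {G : Type u} [Group G] [Finite G] (C : Subgroup G) [C.Normal] (hC : ¬ IsMulCommutative C) :
    ∃ N : Subgroup G, N.Normal ∧ N ≤ C ∧ ¬ IsMulCommutative N ∧
      ∀ M : Subgroup G, M.Normal → M ≤ N → ¬ IsMulCommutative M → M = N := by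
  have hne : ({N : Subgroup G | N.Normal ∧ N ≤ C ∧ ¬ IsMulCommutative N}).Nonempty :=
    ⟨C, inferInstance, le_rfl, hC⟩
  obtain ⟨N, hN⟩ := (Set.toFinite {N : Subgroup G | N.Normal ∧ N ≤ C ∧ ¬ IsMulCommutative N}).exists_minimal hne
  refine ⟨N, hN.1.1, hN.1.2.1, hN.1.2.2, ?_⟩
  intro M hM hMN hMc
  exact le_antisymm hMN (hN.2 ⟨hM, hMN.trans hN.1.2.1, hMc⟩ hMN)

/-- a cyclic normal subgroup: the index of the centraliser is at most the order -/
theorem index_centralizer_le {G : Type u} [Group G] [Finite G] (A : Subgroup G) [A.Normal] (hA : IsCyclic A) :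
    (centralizer (A : Set G)).index ≤ Nat.card A := by
  obtain ⟨g, hg⟩ := hA.exists_generator
  have hker : ∀ x y : G, x * g * x⁻¹ = y * g * y⁻¹ → x⁻¹ * y ∈ centralizer (A : Set G) := by
    intro x y hxy
    rw [mem_centralizer_iff]
    intro a ha
    obtain ⟨k, hk⟩ := hg ⟨a, ha⟩
    have hk' : (g : G) ^ k = a := congrArg Subtype.val hk
    have h1 : Commute (x⁻¹ * y) (g : G) := by
      show x⁻¹ * y * g = g * (x⁻¹ * y)
      have h2 : y * g = x * g * x⁻¹ * y := by rw [hxy]; group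
      calc x⁻¹ * y * g = x⁻¹ * (y * g) := by group
        _ = g * (x⁻¹ * y) := by rw [h2]; group
    rw [← hk']
    exact ((h1.zpow_right k).eq).symm
  let f : G ⧸ centralizer (A : Set G) → A :=
    Quotient.lift (fun x : G => (⟨x * g * x⁻¹, ‹A.Normal›.conj_mem g g.2 x⟩ : A)) (by
      intro x y hxy
      apply Subtype.ext
      show x * g * x⁻¹ = y * g * y⁻¹
      have h1 : x⁻¹ * y ∈ centralizer (A : Set G) := QuotientGroup.leftRel_apply.mp hxy
      have h2 := mem_centralizer_iff.mp h1 g g.2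
      calc x * g * x⁻¹ = x * (g * (x⁻¹ * y)) * y⁻¹ := by group
        _ = y * g * y⁻¹ := by rw [h2]; group)
  have hf : Function.Injective f := by
    intro a b hab
    induction a using QuotientGroup.induction_on with
    | H a =>
    induction b using QuotientGroup.induction_on with
    | H b =>
    rw [QuotientGroup.eq]
    exact hker a b (congrArg Subtype.val hab)
  exact Nat.card_le_card_of_injective f hf

section near

variable {p : ℕ} [hp : Fact p.Prime] {V : Type u} [AddCommGroup V] [Module (ZMod p) V] [Finite V]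
  {H : Subgroup (V ≃ₗ[ZMod p] V)}

theorem near_centralizer (hreg : Reg H) [Nontrivial V]
    (hI : ∀ A : Subgroup H, A.Normal → IsCyclic A → ∃ W : Submodule (ZMod p) V, W ≠ ⊥ ∧ W ≠ ⊤ ∧
      ∀ a ∈ A, ∀ v ∈ W, ((a : H) : V ≃ₗ[ZMod p] V) v ∈ W) (A : Subgroup H) (hAn : A.Normal) (hAc : IsMulCommutative A)
    (hAmax : ∀ B : Subgroup H, B.Normal → IsMulCommutative B → A ≤ B → B = A) :
    ¬ IsMulCommutative (centralizer (A : Set H)) := by
  intro hC
  haveI := hAn
  have hcyc : IsCyclic A := (hreg.hasFPFModule.subgroup A).isCyclic_of_isMulCommutative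
  have hCA : centralizer (A : Set H) = A := by
    apply hAmax _ inferInstance hC
    intro a ha
    rw [mem_centralizer_iff]
    intro b hb
    exact isMulCommutative_iff_comm.mp hAc b hb a ha
  -- minimal invariant subspace
  let Inv : Submodule (ZMod p) V → Prop := fun W => W ≠ ⊥ ∧ W ≠ ⊤ ∧ ∀ a ∈ A, ∀ v ∈ W, ((a : H) : V ≃ₗ[ZMod p] V) v ∈ W
  haveI : Finite (Submodule (ZMod p) V) := Finite.of_injective (fun W => (W : Set V)) SetLike.coe_injective
  obtain ⟨W, hW⟩ := (Set.toFinite {W : Submodule (ZMod p) V | Inv W}).exists_minimal (hI A hAn hcyc)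
  obtain ⟨hW0, hW1, hWA⟩ := hW.1
  have hWmin : ∀ W' : Submodule (ZMod p) V, Inv W' → W' ≤ W → W ≤ W' := fun W' h1 h2 => hW.2 h1 h2
  have hdvd := hreg.card_dvd A W hWA
  obtain ⟨w, hw, hw0⟩ := Submodule.exists_mem_ne_zero_of_ne_bot hW0
  obtain ⟨v, hv⟩ : ∃ v : V, v ∉ W := by
    by_contra hcon
    push Not at hcon
    exact hW1 (eq_top_iff.mpr fun x _ => hcon x)
  have hv0 : v ≠ 0 := fun h => hv (by rw [h]; exact W.zero_mem)
  obtain ⟨h, hh, -⟩ := hreg w v hw0 hv0
  set W' := W.map ((h : V ≃ₗ[ZMod p] V) : V →ₗ[ZMod p] V) with hW'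
  have hvW' : v ∈ W' := ⟨w, hw, hh⟩
  have hinv' : ∀ a ∈ A, ∀ x ∈ W', ((a : H) : V ≃ₗ[ZMod p] V) x ∈ W' := by
    rintro a ha _ ⟨y, hy, rfl⟩
    refine ⟨((h⁻¹ * a * h : H) : V ≃ₗ[ZMod p] V) y, hWA _ (by
      have := hAn.conj_mem a ha h⁻¹
      rwa [inv_inv] at this) y hy, ?_⟩
    have e1 : h * (h⁻¹ * a * h) = a * h := by group
    have e2 : ((h * (h⁻¹ * a * h) : H) : V ≃ₗ[ZMod p] V) y = ((a * h : H) : V ≃ₗ[ZMod p] V) y := by rw [e1]
    exact e2
  have hdisj : Disjoint W W' := by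
    rw [disjoint_iff]
    by_contra hne
    have h1 : Inv (W ⊓ W') := by
      refine ⟨hne, ?_, ?_⟩
      · intro htop
        apply hW1
        rw [eq_top_iff, ← htop]
        exact inf_le_left
      · intro a ha x hx
        exact ⟨hWA a ha x hx.1, hinv' a ha x hx.2⟩
    have h2 := hWmin _ h1 inf_le_left
    have h3 : W ≤ W' := h2.trans inf_le_right
    have hcard : Nat.card W' = Nat.card W := by
      exact (Nat.card_congr (Submodule.equivMapOfInjective _ (h : V ≃ₗ[ZMod p] V).injective W).toEquiv).symm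
    have h4 : (W : Set V) = (W' : Set V) := by
      apply Set.eq_of_subset_of_ncard_le h3
      rw [← Nat.card_coe_set_eq, ← Nat.card_coe_set_eq]
      exact hcard.le
    apply hv
    have h5 : v ∈ (W' : Set V) := hvW'
    rw [← h4] at h5
    exact h5
  have hcard : Nat.card W * Nat.card W ≤ Nat.card V := by
    have h1 : Function.Injective (fun q : W × W => (q.1 : V) + (h : V ≃ₗ[ZMod p] V) (q.2 : V)) := by
      rintro ⟨a, b⟩ ⟨a', b'⟩ hab
      have h2 : (a : V) + (h : V ≃ₗ[ZMod p] V) b = a' + (h : V ≃ₗ[ZMod p] V) b' := hab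
      have h3 : (a : V) - a' = (h : V ≃ₗ[ZMod p] V) (b' - b : V) := by
        rw [map_sub]
        have h4 : (a : V) - a' = (a + (h : V ≃ₗ[ZMod p] V) b) - (h : V ≃ₗ[ZMod p] V) b - a' := by abel
        rw [h4, h2]; abel
      have h4 : (a : V) - a' ∈ W ⊓ W' := ⟨W.sub_mem a.2 a'.2, by
        rw [h3]; exact ⟨_, W.sub_mem b'.2 b.2, rfl⟩⟩
      rw [disjoint_iff.mp hdisj, Submodule.mem_bot] at h4
      have h5 : (a : V) = a' := sub_eq_zero.mp h4
      rw [h5] at h2
      have h6 := (h : V ≃ₗ[ZMod p] V).injective (add_left_cancel h2)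
      exact Prod.ext (Subtype.ext h5) (Subtype.ext h6)
    have h2 := Nat.card_le_card_of_injective _ h1
    rwa [Nat.card_prod] at h2
  have hidx := index_centralizer_le A hcyc
  rw [hCA] at hidx
  have hH := hreg.card
  have h1 := A.card_mul_index
  have hW2 : 1 < Nat.card W := by
    haveI : Nontrivial W := ⟨⟨w, hw⟩, 0, fun h => hw0 (congrArg Subtype.val h)⟩
    exact Finite.one_lt_card
  have h2 := Nat.le_of_dvd (by omega) hdvd
  have h3 : Nat.card H ≤ Nat.card A * Nat.card A := by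
    rw [← h1]; exact Nat.mul_le_mul_left _ hidx
  have h4 := Nat.mul_le_mul h2 h2
  obtain ⟨m, hm⟩ : ∃ m, Nat.card W = m + 2 := ⟨Nat.card W - 2, by omega⟩
  rw [hm] at h4 hcard
  have h5 : (m + 2 - 1) * (m + 2 - 1) = m * m + 2 * m + 1 := by
    rw [show m + 2 - 1 = m + 1 by omega]; ring
  have h6 : (m + 2) * (m + 2) = m * m + 4 * m + 4 := by ring
  omega

end near

end Cfsg.Agent.FC
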