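import Cfsg.Agent.FC.Struct5
import Cfsg.Agent.H91.SolvPCore
import Cfsg.Agent.H48.PCore
import Cfsg.Agent.Bal.Quot
import Cfsg.Agent.H20.OddAut

/-!
The quotient of a Frobenius complement by its metacyclic part: existence.
-/

set_option autoImplicit false
set_option linter.unusedSectionVars false

namespace Cfsg.Agent.FC

open Frob (HasFPFModule)
open H4 (IsQ8)
open Subgroup

universe u v

/-- lifting of 2-subgroups modulo an odd kernel -/
theorem exists_lift_two {X : Type u} {Y : Type v} [Group X] [Finite X] [Group Y] (f : X →* Y) (hf : Function.Surjective f)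
    (hk : (Nat.card f.ker).Coprime 2) {U : Subgroup Y} (hU : IsPGroup 2 U) :
    ∃ P : Subgroup X, IsPGroup 2 P ∧ Nonempty (P ≃* U) := by
  haveI : Fact (Nat.Prime 2) := ⟨Nat.prime_two⟩
  haveI : Finite Y := Finite.of_surjective f hf
  set H := U.comap f with hH
  set g : H →* U := f.subgroupComap U with hg
  have hgs : Function.Surjective g := f.subgroupComap_surjective_of_surjective U hf
  set P : Sylow 2 H := default
  have h1 : (P : Subgroup H).map g = ⊤ := by
    have h2 : IsPGroup 2 (⊤ : Subgroup U) := hU.of_equiv Subgroup.topEquiv.symm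
    have h3 := (P.mapSurjective hgs).3 h2 le_top
    rw [← Sylow.coe_mapSurjective hgs P]
    exact h3.symm
  have hinj : Function.Injective (g.comp (P : Subgroup H).subtype) := by
    rw [injective_iff_map_eq_one]
    intro x hx
    have h2 : f ((x : H) : X) = 1 := congrArg Subtype.val hx
    have h3 : orderOf ((x : H) : X) ∣ Nat.card f.ker := by
      rw [← Subgroup.orderOf_mk ((x : H) : X) (MonoidHom.mem_ker.mpr h2)]
      exact orderOf_dvd_natCard _
    obtain ⟨k, hk2⟩ := IsPGroup.iff_orderOf.mp P.2 x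
    rw [← Subgroup.orderOf_coe, ← Subgroup.orderOf_coe] at hk2
    have h4 : (orderOf ((x : H) : X)).Coprime 2 := Nat.Coprime.coprime_dvd_left h3 hk
    rw [hk2] at h4
    have h5 : k = 0 := by
      by_contra hk0
      have h6 : 2 ∣ 2 ^ k := dvd_pow_self 2 hk0
      have h7 := Nat.Coprime.eq_one_of_dvd h4.symm h6
      omega
    rw [h5, pow_zero, orderOf_eq_one_iff] at hk2
    apply Subtype.ext
    apply Subtype.ext
    exact hk2
  have hsurj : Function.Surjective (g.comp (P : Subgroup H).subtype) := by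
    intro y
    have h2 : y ∈ (P : Subgroup H).map g := by rw [h1]; trivial
    obtain ⟨x, hx, hxy⟩ := h2
    exact ⟨⟨x, hx⟩, hxy⟩
  have e1 : (P : Subgroup H) ≃* U := MulEquiv.ofBijective _ ⟨hinj, hsurj⟩
  refine ⟨(P : Subgroup H).map H.subtype, ?_, ⟨((P : Subgroup H).equivMapOfInjective H.subtype H.subtype_injective).symm.trans e1⟩⟩
  exact P.2.of_equiv ((P : Subgroup H).equivMapOfInjective H.subtype H.subtype_injective)

/-- 2-subgroups of the quotient by an odd normal subgroup are cyclic or quaternion -/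
theorem psub_quot {X : Type u} {Y : Type v} [Group X] [Finite X] [Group Y] (h : HasFPFModule X) (f : X →* Y)
    (hf : Function.Surjective f)
    (hk : (Nat.card f.ker).Coprime 2) {U : Subgroup Y} (hU : IsPGroup 2 U) :
    IsCyclic U ∨ ∃ n : ℕ, Nonempty (U ≃* QuaternionGroup (2 ^ n)) := by
  haveI : Fact (Nat.Prime 2) := ⟨Nat.prime_two⟩
  obtain ⟨P, hP, ⟨e⟩⟩ := exists_lift_two f hf hk hU
  rcases psub h hP with hc | ⟨-, n, ⟨e'⟩⟩
  · left
    exact isCyclic_of_surjective e.toMonoidHom e.surjective
  · right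
    exact ⟨n, ⟨e.symm.trans e'⟩⟩

theorem zgroup_of_map_cyclic {X : Type u} {Y : Type v} [Group X] [Finite X] [Group Y] (h : HasFPFModule X) (f : X →* Y)
    (hk : (Nat.card f.ker).Coprime 2) (N : Subgroup X) (hN : IsCyclic (N.map f)) : IsZGroup N := by
  constructor
  intro p hp P
  haveI : Fact p.Prime := ⟨hp⟩
  rcases psub (h.subgroup N) P.2 with hc | ⟨rfl, -⟩
  · exact hc
  · let g : (P : Subgroup N) →* N.map f := (f.subgroupMap N).comp (P : Subgroup N).subtype
    have hinj : Function.Injective g := by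
      rw [injective_iff_map_eq_one]
      intro x hx
      have h2 : f ((x : N) : X) = 1 := congrArg Subtype.val hx
      have h3 : orderOf ((x : N) : X) ∣ Nat.card f.ker := by
        rw [← Subgroup.orderOf_mk ((x : N) : X) (MonoidHom.mem_ker.mpr h2)]
        exact orderOf_dvd_natCard _
      obtain ⟨k, hk2⟩ := IsPGroup.iff_orderOf.mp P.2 x
      rw [← Subgroup.orderOf_coe, ← Subgroup.orderOf_coe] at hk2
      have h4 : (orderOf ((x : N) : X)).Coprime 2 := Nat.Coprime.coprime_dvd_left h3 hk
      rw [hk2] at h4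
      have h5 : k = 0 := by
        by_contra hk0
        have h6 : 2 ∣ 2 ^ k := dvd_pow_self 2 hk0
        have h7 := Nat.Coprime.eq_one_of_dvd h4.symm h6
        omega
      rw [h5, pow_zero, orderOf_eq_one_iff] at hk2
      apply Subtype.ext
      apply Subtype.ext
      exact hk2
    exact isCyclic_of_injective g hinj

/-- the hom from a quaternion group to the Klein four-group -/
def quatToKlein (n : ℕ) (hn : 1 ≤ n) : QuaternionGroup (2 ^ n) →* DihedralGroup 2 where
  toFun g := match g with
    | .a i => DihedralGroup.r (ZMod.castHom (dvd_mul_right 2 (2 ^ n)) (ZMod 2) i)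
    | .xa i => DihedralGroup.sr (ZMod.castHom (dvd_mul_right 2 (2 ^ n)) (ZMod 2) i)
  map_one' := by
    show DihedralGroup.r (ZMod.castHom (dvd_mul_right 2 (2 ^ n)) (ZMod 2) 0) = 1
    rw [map_zero]; rfl
  map_mul' := by
    have h2 : ZMod.castHom (dvd_mul_right 2 (2 ^ n)) (ZMod 2) ((2 ^ n : ℕ) : ZMod (2 * 2 ^ n)) = 0 := by
      rw [map_natCast, Nat.cast_pow]
      have : ((2 : ℕ) : ZMod 2) = 0 := by decide
      rw [this, zero_pow (by omega)]
    rintro (i | i) (j | j)
    · show DihedralGroup.r (ZMod.castHom (dvd_mul_right 2 (2 ^ n)) (ZMod 2) (i + j)) = _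
      rw [map_add]; rfl
    · show DihedralGroup.sr (ZMod.castHom (dvd_mul_right 2 (2 ^ n)) (ZMod 2) (j - i)) = _
      rw [map_sub]; rfl
    · show DihedralGroup.sr (ZMod.castHom (dvd_mul_right 2 (2 ^ n)) (ZMod 2) (i + j)) = _
      rw [map_add]; rfl
    · show DihedralGroup.r (ZMod.castHom (dvd_mul_right 2 (2 ^ n)) (ZMod 2) (((2 ^ n : ℕ) : ZMod (2 * 2 ^ n)) + j - i)) = _
      rw [map_sub, map_add, h2, zero_add]; rfl

theorem quatToKlein_surjective (n : ℕ) (hn : 1 ≤ n) : Function.Surjective (quatToKlein n hn) := by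
  have hs := ZMod.castHom_surjective (dvd_mul_right 2 (2 ^ n))
  rintro (i | i)
  · obtain ⟨j, rfl⟩ := hs i
    exact ⟨.a j, rfl⟩
  · obtain ⟨j, rfl⟩ := hs i
    exact ⟨.xa j, rfl⟩

theorem quatToKlein_ker_cyclic (n : ℕ) (hn : 1 ≤ n) : IsCyclic (quatToKlein n hn).ker := by
  haveI : NeZero (2 * 2 ^ n) := ⟨by positivity⟩
  have h1 : (quatToKlein n hn).ker ≤ zpowers (QuaternionGroup.a 1 : QuaternionGroup (2 ^ n)) := by
    rintro (i | i) hx
    · have : (QuaternionGroup.a i : QuaternionGroup (2 ^ n)) = (QuaternionGroup.a 1) ^ i.val := by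
        rw [QuaternionGroup.a_one_pow, ZMod.natCast_zmod_val]
      rw [this]
      exact pow_mem (mem_zpowers _) _
    · exfalso
      have h2 : DihedralGroup.sr (ZMod.castHom (dvd_mul_right 2 (2 ^ n)) (ZMod 2) i) = DihedralGroup.r 0 := hx
      cases h2
  exact isCyclic_of_injective (f := Subgroup.inclusion h1) (Subgroup.inclusion_injective h1)

/-- the list of possible quotients -/
def QuotList {G : Type u} [Group G] (N : Subgroup G) : Prop :=
  N = ⊤ ∨
    (∃ f : G →* DihedralGroup 2, Function.Surjective f ∧ f.ker = N) ∨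
    (∃ f : G →* alternatingGroup (Fin 4), Function.Surjective f ∧ f.ker = N) ∨
    (∃ f : G →* Equiv.Perm (Fin 4), Function.Surjective f ∧ f.ker = N) ∨
    (∃ f : G →* alternatingGroup (Fin 5), Function.Surjective f ∧ f.ker = N) ∨
    (∃ f : G →* Equiv.Perm (Fin 5), Function.Surjective f ∧ f.ker = N)

theorem alt_of_card {G : Type u} [Group G] {m : ℕ} (hm : 2 ≤ m) (f : G →* Equiv.Perm (Fin m))
    (h : 2 * Nat.card f.range = Nat.card (Equiv.Perm (Fin m))) :
    ∃ f' : G →* alternatingGroup (Fin m), Function.Surjective f' ∧ f'.ker = f.ker := by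
  haveI : Nontrivial (Fin m) := Fin.nontrivial_iff_two_le.mpr hm
  have hidx : f.range.index = 2 := by
    have h1 := f.range.card_mul_index
    rw [← h, mul_comm 2] at h1
    exact Nat.eq_of_mul_eq_mul_left Nat.card_pos h1
  have hr : f.range = alternatingGroup (Fin m) := Equiv.Perm.eq_alternatingGroup_of_index_eq_two hidx
  have hmem : ∀ g : G, f g ∈ alternatingGroup (Fin m) := by
    intro g; rw [← hr]; exact ⟨g, rfl⟩
  refine ⟨f.codRestrict _ hmem, ?_, ?_⟩
  · rintro ⟨σ, hσ⟩
    rw [← hr] at hσ
    obtain ⟨g, hg⟩ := hσ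
    exact ⟨g, Subtype.ext hg⟩
  · ext g
    rw [MonoidHom.mem_ker, MonoidHom.mem_ker]
    exact ⟨fun h => congrArg Subtype.val h, fun h => Subtype.ext h⟩

variable {G : Type u} [Group G] [Finite G]

theorem exists_quot_solvable (h : HasFPFModule G) (hs : Group.IsSolvable G) :
    ∃ N : Subgroup G, N.Normal ∧ IsZGroup N ∧ (N = ⊤ ∨
      (∃ f : G →* DihedralGroup 2, Function.Surjective f ∧ f.ker = N) ∨
      (∃ f : G →* alternatingGroup (Fin 4), Function.Surjective f ∧ f.ker = N) ∨
      (∃ f : G →* Equiv.Perm (Fin 4), Function.Surjective f ∧ f.ker = N)) := by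
  haveI : Fact (Nat.Prime 2) := ⟨Nat.prime_two⟩
  set O := Cfsg.pPrimeCore 2 G with hO
  haveI : O.Normal := Solv.pPrimeCore_normal 2
  set f₁ : G →* G ⧸ O := QuotientGroup.mk' O with hf₁
  have hf₁s : Function.Surjective f₁ := QuotientGroup.mk'_surjective O
  have hk : (Nat.card f₁.ker).Coprime 2 := by
    rw [hf₁, QuotientGroup.ker_mk']
    exact H48.coprime_card_pPrimeCore 2 G
  haveI := hs
  have hC := H91.centralizer_pCore_le (G := G ⧸ O) 2 Bal.pPrimeCore_quot_bot
  set Q := Cfsg.pCore 2 (G ⧸ O) with hQ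
  have hQp : IsPGroup 2 Q := H48.isPGroup_pCore 2 _
  haveI hQn : Q.Normal := Solv.pCore_normal 2
  by_cases h2 : IsPGroup 2 (G ⧸ O)
  · -- the quotient is a 2-group
    have htop : IsPGroup 2 (⊤ : Subgroup (G ⧸ O)) := h2.of_equiv Subgroup.topEquiv.symm
    have hcyc : IsCyclic (⊤ : Subgroup (G ⧸ O)) → ∃ N : Subgroup G, N.Normal ∧ IsZGroup N ∧ (N = ⊤ ∨
      (∃ f : G →* DihedralGroup 2, Function.Surjective f ∧ f.ker = N) ∨
      (∃ f : G →* alternatingGroup (Fin 4), Function.Surjective f ∧ f.ker = N) ∨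
      (∃ f : G →* Equiv.Perm (Fin 4), Function.Surjective f ∧ f.ker = N)) := by
      intro hc
      refine ⟨⊤, inferInstance, ?_, Or.inl rfl⟩
      apply zgroup_of_map_cyclic h f₁ hk
      rw [← MonoidHom.range_eq_map, MonoidHom.range_eq_top.mpr hf₁s]
      exact hc
    rcases psub_quot h f₁ hf₁s hk htop with hc | ⟨n, ⟨e⟩⟩
    · exact hcyc hc
    rcases Nat.eq_zero_or_pos n with rfl | hn
    · apply hcyc
      rw [pow_zero] at e
      haveI := QuaternionGroup.quaternionGroup_one_isCyclic
      exact isCyclic_of_surjective e.symm.toMonoidHom e.symm.surjective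
    · set f : G →* DihedralGroup 2 := (quatToKlein n hn).comp ((e.toMonoidHom.comp Subgroup.topEquiv.symm.toMonoidHom).comp f₁) with hf
      refine ⟨f.ker, inferInstance, ?_, Or.inr (Or.inl ⟨f, ?_, rfl⟩)⟩
      · apply zgroup_of_map_cyclic h f₁ hk
        have hcyc := quatToKlein_ker_cyclic n hn
        let g : (f.ker.map f₁ : Subgroup (G ⧸ O)) →* (quatToKlein n hn).ker :=
          ((e.toMonoidHom.comp Subgroup.topEquiv.symm.toMonoidHom).comp (f.ker.map f₁).subtype).codRestrict _ (by
            rintro ⟨_, x, hx, rfl⟩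
            exact hx)
        have hg : Function.Injective g := by
          intro x y hxy
          have h3 : e (Subgroup.topEquiv.symm (x : G ⧸ O)) = e (Subgroup.topEquiv.symm (y : G ⧸ O)) := congrArg Subtype.val hxy
          exact Subtype.ext (Subgroup.topEquiv.symm.injective (e.injective h3))
        exact isCyclic_of_injective g hg
      · exact (quatToKlein_surjective n hn).comp ((e.surjective.comp Subgroup.topEquiv.symm.surjective).comp hf₁s)
  · -- there is an element of odd order
    obtain ⟨g, hg1, hgo⟩ := H20.exists_odd_of_not_isPGroup h2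
    have hgn : g ∈ normalizer (Q : Set (G ⧸ O)) := by rw [normalizer_eq_top]; trivial
    have hgc : g ∉ centralizer (Q : Set (G ⧸ O)) := by
      intro hc
      obtain ⟨k, hk2⟩ := IsPGroup.iff_orderOf.mp hQp ⟨g, hC hc⟩
      rw [Subgroup.orderOf_mk] at hk2
      rw [hk2] at hgo
      have h5 : k = 0 := by
        by_contra hk0
        exact (Nat.not_even_iff_odd.mpr hgo) (even_iff_two_dvd.mpr (dvd_pow_self 2 hk0))
      rw [h5, pow_zero, orderOf_eq_one_iff] at hk2
      exact hg1 hk2
    obtain ⟨u, hq8, hg3, ⟨e⟩⟩ := odd_on_two' hQp (psub_quot h f₁ hf₁s hk hQp) hgn hgo hgc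
    have hg3' : g ^ 3 = 1 := by
      have h4 : Odd (orderOf (g ^ 3)) := hgo.of_dvd_nat (orderOf_pow_dvd 3)
      obtain ⟨k, hk2⟩ := IsPGroup.iff_orderOf.mp hQp ⟨g ^ 3, hC hg3⟩
      rw [Subgroup.orderOf_mk] at hk2
      rw [hk2] at h4
      have h5 : k = 0 := by
        by_contra hk0
        exact (Nat.not_even_iff_odd.mpr h4) (even_iff_two_dvd.mpr (dvd_pow_self 2 hk0))
      rw [h5, pow_zero, orderOf_eq_one_iff] at hk2
      exact hk2
    obtain ⟨e2⟩ := S3742.result
    set c : G ⧸ O →* MulAut Q := MulAut.conjNormal with hc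
    set f₂ : G ⧸ O →* Equiv.Perm (Fin 4) := ((MulAut.congr e).trans e2).toMonoidHom.comp c with hf₂
    have hkc : f₂.ker = centralizer (Q : Set (G ⧸ O)) := by
      ext x
      rw [MonoidHom.mem_ker, mem_centralizer_iff]
      have h5 : f₂ x = 1 ↔ c x = 1 := by
        show ((MulAut.congr e).trans e2) (c x) = 1 ↔ _
        rw [MulEquiv.map_eq_one_iff]
      rw [h5]
      constructor
      · intro h6 y hy
        have h7 : c x ⟨y, hy⟩ = ⟨y, hy⟩ := by rw [h6]; rfl
        have h8 := congrArg Subtype.val h7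
        rw [hc, MulAut.conjNormal_apply] at h8
        exact (mul_inv_eq_iff_eq_mul.mp h8).symm
      · intro h6
        apply MulEquiv.ext
        rintro ⟨y, hy⟩
        apply Subtype.ext
        rw [hc, MulAut.conjNormal_apply]
        show x * y * x⁻¹ = y
        rw [← h6 y hy, mul_inv_cancel_right]
    have hku : f₂.ker ≤ zpowers u := by
      rw [hkc]
      intro z hz
      have hzQ := hC hz
      by_cases hzz : z * z = 1
      · rcases hq8.sq z hzQ hzz with h6 | h6
        · rw [h6]; exact one_mem _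
        · rw [h6]; exact mem_zpowers u
      · exfalso
        -- z is central in Q
        obtain ⟨a, ha, b, hb, haa, hbb, hba, hba'⟩ := hq8.pair
        have hza : ∀ w ∈ Q, w * z = z * w := fun w hw => mem_centralizer_iff.mp hz w hw
        obtain ⟨w, hw, hww, hwz, hwz'⟩ : ∃ w ∈ Q, w * w ≠ 1 ∧ w ≠ z ∧ w ≠ z⁻¹ := by
          by_cases h7 : a = z ∨ a = z⁻¹
          · refine ⟨b, hb, hbb, ?_, ?_⟩
            · rintro rfl
              rcases h7 with h7 | h7
              · exact hba h7.symm
              · exact hba' (by rw [h7, inv_inv])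
            · rintro h8
              rcases h7 with h7 | h7
              · exact hba' (by rw [h8, h7])
              · exact hba (by rw [h8, h7])
          · push Not at h7
            exact ⟨a, ha, haa, h7.1, h7.2⟩
        have h8 := hq8.conj z hzQ w hw hzz hww hwz hwz'
        rw [hza w hw, mul_inv_cancel_right] at h8
        apply hzz
        nth_rewrite 2 [h8]
        rw [mul_inv_cancel]
    have hcard_ker : Nat.card f₂.ker ≤ 2 := by
      have h5 := Nat.le_of_dvd (by rw [Nat.card_zpowers]; exact orderOf_pos u) (Subgroup.card_dvd_of_le hku)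
      rw [Nat.card_zpowers, hq8.orderOf_u] at h5
      exact h5
    have hsf : Function.Surjective (f₂.rangeRestrict.comp f₁) := f₂.rangeRestrict_surjective.comp hf₁s
    -- cardinality of the range
    have h3r : 3 ∣ Nat.card f₂.range := by
      have h5 : orderOf (f₂ g) = 3 := by
        haveI : Fact (Nat.Prime 3) := ⟨Nat.prime_three⟩
        apply orderOf_eq_prime
        · rw [← map_pow, hg3', map_one]
        · intro h6
          apply hgc
          rw [← hkc]
          exact h6
      rw [← h5, ← Subgroup.orderOf_mk (f₂ g) (show f₂ g ∈ f₂.range from ⟨g, rfl⟩)]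
      exact orderOf_dvd_natCard _
    have h4r : 4 ∣ Nat.card f₂.range := by
      have h5 : Nat.card (Q.map f₂) ∣ Nat.card f₂.range := Subgroup.card_dvd_of_le (by
        rintro _ ⟨x, -, rfl⟩; exact ⟨x, rfl⟩)
      refine dvd_trans ?_ h5
      have h6 : Nat.card Q = Nat.card (Q.map f₂) * Nat.card (f₂.ker.subgroupOf Q) := by
        have h7 := Subgroup.card_mul_index (f₂.ker.subgroupOf Q)
        have h8 : (f₂.ker.subgroupOf Q).index = Nat.card (Q.map f₂) := by
          have h9 : f₂.ker.subgroupOf Q = (f₂.comp Q.subtype).ker := by ext x; rfl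
          rw [h9, Subgroup.index_ker]
          have h10 : (f₂.comp Q.subtype).range = Q.map f₂ := by
            rw [MonoidHom.range_comp, Subgroup.range_subtype]
          rw [h10]
        rw [← h7, h8, mul_comm]
      have h7 : Nat.card (f₂.ker.subgroupOf Q) ≤ 2 := by
        have h8 : Nat.card (f₂.ker.subgroupOf Q) ∣ Nat.card f₂.ker := by
          have h9 : Nat.card ((f₂.ker.subgroupOf Q).map Q.subtype) = Nat.card (f₂.ker.subgroupOf Q) :=
            Subgroup.card_map_of_injective Q.subtype_injective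
          rw [← h9]
          apply Subgroup.card_dvd_of_le
          rintro _ ⟨x, hx, rfl⟩
          exact hx
        exact (Nat.le_of_dvd Nat.card_pos h8).trans hcard_ker
      rw [hq8.card] at h6
      have h8 : 0 < Nat.card (f₂.ker.subgroupOf Q) := Nat.card_pos
      interval_cases h9 : Nat.card (f₂.ker.subgroupOf Q)
      · rw [mul_one] at h6
        rw [← h6]
        norm_num
      · have : Nat.card (Q.map f₂) = 4 := by omega
        rw [this]
    have h12 : 12 ∣ Nat.card f₂.range := by
      have : Nat.Coprime 3 4 := by norm_num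
      exact this.mul_dvd_of_dvd_of_dvd h3r h4r
    have h24 : Nat.card f₂.range ∣ 24 := by
      have h5 := Subgroup.card_subgroup_dvd_card f₂.range
      have h6 : Nat.card (Equiv.Perm (Fin 4)) = 24 := by
        rw [Nat.card_eq_fintype_card, Fintype.card_perm]; rfl
      rwa [h6] at h5
    set f : G →* Equiv.Perm (Fin 4) := f₂.comp f₁ with hf
    have hrange : f.range = f₂.range := by
      rw [hf, MonoidHom.range_comp, MonoidHom.range_eq_top.mpr hf₁s, ← MonoidHom.range_eq_map]
    have hz : IsZGroup f.ker := by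
      apply zgroup_of_map_cyclic h f₁ hk
      have h5 : f.ker.map f₁ ≤ zpowers u := by
        rintro _ ⟨x, hx, rfl⟩
        exact hku hx
      exact isCyclic_of_injective (f := Subgroup.inclusion h5) (Subgroup.inclusion_injective h5)
    refine ⟨f.ker, inferInstance, hz, ?_⟩
    have h5 : Nat.card f₂.range = 12 ∨ Nat.card f₂.range = 24 := by
      obtain ⟨k, hk12⟩ := h12
      have h6 := Nat.le_of_dvd (by norm_num) h24
      have h7 : 0 < Nat.card f₂.range := Nat.card_pos
      omega
    have hp24 : Nat.card (Equiv.Perm (Fin 4)) = 24 := by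
      rw [Nat.card_eq_fintype_card, Fintype.card_perm]; rfl
    rcases h5 with h5 | h5
    · right; right; left
      obtain ⟨f', hf', hk'⟩ := alt_of_card (by norm_num) f (by rw [hrange, h5, hp24])
      exact ⟨f', hf', hk'⟩
    · right; right; right
      refine ⟨f, ?_, rfl⟩
      rw [← MonoidHom.range_eq_top, hrange]
      exact Subgroup.eq_top_of_card_eq _ (by rw [h5, hp24])

end Cfsg.Agent.FC
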