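import Cfsg.Agent.FC.Quot1

/-!
The quotient of a Frobenius complement by its metacyclic part: uniqueness.
-/

set_option autoImplicit false
set_option linter.unusedSectionVars false

namespace Cfsg.Agent.FC

open Frob (HasFPFModule)
open Subgroup

universe u v

theorem zgroup_involution {M : Type u} [Group M] [Finite M] [IsZGroup M] {u v : M} (hu : u * u = 1) (hu1 : u ≠ 1)
    (hv : v * v = 1) (hv1 : v ≠ 1) (huv : u * v = v * u) : u = v := by
  haveI : Fact (Nat.Prime 2) := ⟨Nat.prime_two⟩
  let X : Subgroup M := zpowers u ⊔ zpowers v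
  have hc : ∀ a ∈ zpowers u, ∀ b ∈ zpowers v, a * b = b * a := by
    rintro _ ⟨k, rfl⟩ _ ⟨l, rfl⟩
    have : Commute u v := huv
    exact ((this.zpow_left k).zpow_right l).eq
  have hn : zpowers u ≤ normalizer ((zpowers v : Subgroup M) : Set M) := by
    intro a ha
    rw [mem_normalizer_iff]
    intro b
    constructor
    · intro hb
      rw [hc a ha b hb, mul_inv_cancel_right]; exact hb
    · intro hb
      have h1 := hc a ha _ hb
      have h2 : a * b * a⁻¹ = b := by
        have : a * (a * b * a⁻¹) = a * b := by rw [h1, inv_mul_cancel_right]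
        exact mul_left_cancel this
      rwa [h2] at hb
  have hou : orderOf u = 2 := orderOf_eq_prime (by rw [pow_two, hu]) hu1
  have hov : orderOf v = 2 := orderOf_eq_prime (by rw [pow_two, hv]) hv1
  have hpX : IsPGroup 2 X := by
    have h1 : IsPGroup 2 (zpowers u) := by
      rw [IsPGroup.iff_card, Nat.card_zpowers]
      exact ⟨1, by rw [pow_one]; exact hou⟩
    have h2 : IsPGroup 2 (zpowers v) := by
      rw [IsPGroup.iff_card, Nat.card_zpowers]
      exact ⟨1, by rw [pow_one]; exact hov⟩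
    exact IsPGroup.to_sup_of_normal_right' h1 h2 hn
  have huX : zpowers u ≤ X := le_sup_left
  have hvX : zpowers v ≤ X := le_sup_right
  haveI : IsCyclic X := IsPGroup.isCyclic_of_isZGroup hpX
  have h1 := Frob.eq_of_card_eq_of_isCyclic ((zpowers u).subgroupOf X) ((zpowers v).subgroupOf X)
    (by rw [Nat.card_congr (subgroupOfEquivOfLe huX).toEquiv, Nat.card_congr (subgroupOfEquivOfLe hvX).toEquiv,
      Nat.card_zpowers, Nat.card_zpowers, hou, hov])
  have h2 : (⟨u, huX (mem_zpowers u)⟩ : X) ∈ (zpowers u).subgroupOf X := by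
    rw [mem_subgroupOf]; exact mem_zpowers u
  rw [h1, mem_subgroupOf] at h2
  obtain ⟨k, hk⟩ := h2
  simp only at hk
  rcases Int.even_or_odd' k with ⟨l, hl | hl⟩
  · exfalso
    apply hu1
    rw [← hk, hl, zpow_mul, zpow_ofNat, pow_two, hv, one_zpow]
  · rw [← hk, hl, zpow_add, zpow_mul, zpow_ofNat, pow_two, hv, one_zpow, zpow_one, one_mul]

/-- no nontrivial normal Z-subgroups -/
def NoZ (H : Type u) [Group H] : Prop := ∀ M : Subgroup H, M.Normal → IsZGroup M → M = ⊥

theorem noZ_alt4 : NoZ (alternatingGroup (Fin 4)) := by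
  intro M hM hZ
  rw [eq_bot_iff]
  intro g hg
  rw [mem_bot]
  by_contra hg1
  have key : ∀ g : alternatingGroup (Fin 4), g ≠ 1 → ∃ h1 h2 : alternatingGroup (Fin 4),
      g * (h1 * g⁻¹ * h1⁻¹) ≠ 1 ∧ g * (h2 * g⁻¹ * h2⁻¹) ≠ 1 ∧ g * (h1 * g⁻¹ * h1⁻¹) ≠ g * (h2 * g⁻¹ * h2⁻¹) ∧
      g * (h1 * g⁻¹ * h1⁻¹) * (g * (h1 * g⁻¹ * h1⁻¹)) = 1 ∧ g * (h2 * g⁻¹ * h2⁻¹) * (g * (h2 * g⁻¹ * h2⁻¹)) = 1 ∧
      g * (h1 * g⁻¹ * h1⁻¹) * (g * (h2 * g⁻¹ * h2⁻¹)) = g * (h2 * g⁻¹ * h2⁻¹) * (g * (h1 * g⁻¹ * h1⁻¹)) := by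
    decide +kernel
  obtain ⟨h1, h2, k1, k2, k3, k4, k5, k6⟩ := key g hg1
  have m1 : g * (h1 * g⁻¹ * h1⁻¹) ∈ M := M.mul_mem hg (hM.conj_mem _ (M.inv_mem hg) h1)
  have m2 : g * (h2 * g⁻¹ * h2⁻¹) ∈ M := M.mul_mem hg (hM.conj_mem _ (M.inv_mem hg) h2)
  apply k3
  have := zgroup_involution (u := (⟨_, m1⟩ : M)) (v := ⟨_, m2⟩) (Subtype.ext k4) (fun h => k1 (congrArg Subtype.val h))
    (Subtype.ext k5) (fun h => k2 (congrArg Subtype.val h)) (Subtype.ext k6)
  exact congrArg Subtype.val this

theorem noZ_alt5 : NoZ (alternatingGroup (Fin 5)) := by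
  intro M hM hZ
  rcases hM.eq_bot_or_eq_top with h | h
  · exact h
  · exfalso
    have key : ∃ a b : alternatingGroup (Fin 5), a ≠ 1 ∧ b ≠ 1 ∧ a ≠ b ∧ a * a = 1 ∧ b * b = 1 ∧ a * b = b * a := by
      refine ⟨⟨Equiv.swap 0 1 * Equiv.swap 2 3, Equiv.Perm.mem_alternatingGroup.mpr (by decide)⟩,
        ⟨Equiv.swap 0 2 * Equiv.swap 1 3, Equiv.Perm.mem_alternatingGroup.mpr (by decide)⟩, ?_⟩
      decide +kernel
    obtain ⟨a, b, k1, k2, k3, k4, k5, k6⟩ := key
    have ma : a ∈ M := by rw [h]; trivial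
    have mb : b ∈ M := by rw [h]; trivial
    apply k3
    have := zgroup_involution (u := (⟨_, ma⟩ : M)) (v := ⟨_, mb⟩) (Subtype.ext k4) (fun h => k1 (congrArg Subtype.val h))
      (Subtype.ext k5) (fun h => k2 (congrArg Subtype.val h)) (Subtype.ext k6)
    exact congrArg Subtype.val this

theorem noZ_perm {m : ℕ} (h : NoZ (alternatingGroup (Fin m)))
    (hc : ∀ g : Equiv.Perm (Fin m), (∀ i j : Fin m, g * Equiv.swap i j = Equiv.swap i j * g) → g = 1) : NoZ (Equiv.Perm (Fin m)) := by
  intro M hM hZ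
  have h1 := h (M.comap (alternatingGroup (Fin m)).subtype) inferInstance (by
    apply IsZGroup.of_injective (f := (alternatingGroup (Fin m)).subtype.subgroupComap M)
    intro x y hxy
    have h2 := congrArg Subtype.val hxy
    exact Subtype.ext (Subtype.ext h2))
  rw [eq_bot_iff]
  intro g hg
  rw [mem_bot]
  apply hc
  intro i j
  have hmem : g * (Equiv.swap i j * g⁻¹ * (Equiv.swap i j)⁻¹) ∈ alternatingGroup (Fin m) := by
    show Equiv.Perm.sign _ = 1
    rw [map_mul, map_mul, map_mul, map_inv, map_inv]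
    have e1 := Int.units_mul_self (Equiv.Perm.sign g)
    have e2 := Int.units_mul_self (Equiv.Perm.sign (Equiv.swap i j))
    rw [Int.units_inv_eq_self, Int.units_inv_eq_self, mul_comm (Equiv.Perm.sign (Equiv.swap i j)), mul_assoc, e2, mul_one, e1]
  have h2 : (⟨_, hmem⟩ : alternatingGroup (Fin m)) ∈ M.comap (alternatingGroup (Fin m)).subtype :=
    M.mul_mem hg (hM.conj_mem _ (M.inv_mem hg) _)
  rw [h1, mem_bot] at h2
  have h3 : g * (Equiv.swap i j * g⁻¹ * (Equiv.swap i j)⁻¹) = 1 := congrArg Subtype.val h2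
  have h4 : g = (Equiv.swap i j * g⁻¹ * (Equiv.swap i j)⁻¹)⁻¹ := eq_inv_of_mul_eq_one_left h3
  have h5 : (Equiv.swap i j * g⁻¹ * (Equiv.swap i j)⁻¹)⁻¹ = Equiv.swap i j * g * (Equiv.swap i j)⁻¹ := by group
  rw [h5] at h4
  exact eq_mul_inv_iff_mul_eq.mp h4

theorem perm_center {m : ℕ} (hm : 3 ≤ m) (g : Equiv.Perm (Fin m))
    (h : ∀ i j : Fin m, g * Equiv.swap i j = Equiv.swap i j * g) : g = 1 := by
  ext i
  rw [Equiv.Perm.one_apply]
  by_contra hne
  have hne' : g i ≠ i := fun h => hne (by rw [h])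
  obtain ⟨k, hk1, hk2⟩ : ∃ k : Fin m, k ≠ i ∧ k ≠ g i := by
    have hcard : 2 < Fintype.card (Fin m) := by rw [Fintype.card_fin]; omega
    obtain ⟨k, hk⟩ := Finset.exists_mem_notMem_of_card_lt_card (s := {i, g i}) (t := Finset.univ) (by
      refine lt_of_le_of_lt (Finset.card_insert_le _ _) ?_
      rw [Finset.card_singleton, Finset.card_univ]; omega)
    refine ⟨k, ?_, ?_⟩
    · rintro rfl; exact hk.2 (by simp)
    · rintro h; exact hk.2 (by rw [h]; simp)
  -- compare values at i of swap i k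
  have h1 := congrArg (fun σ : Equiv.Perm (Fin m) => σ i) (h i k)
  simp only [Equiv.Perm.mul_apply, Equiv.swap_apply_left] at h1
  rw [Equiv.swap_apply_of_ne_of_ne hne' hk2.symm] at h1
  exact hk1 (g.injective h1)

theorem noZ_perm4 : NoZ (Equiv.Perm (Fin 4)) := noZ_perm noZ_alt4 (perm_center (by norm_num))
theorem noZ_perm5 : NoZ (Equiv.Perm (Fin 5)) := noZ_perm noZ_alt5 (perm_center (by norm_num))

variable {G : Type u} [Group G] [Finite G]

theorem le_ker_of_noZ {H : Type v} [Group H] (hH : NoZ H) (f : G →* H) (hf : Function.Surjective f) {N : Subgroup G}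
    (hN : N.Normal) (hZ : IsZGroup N) : N ≤ f.ker := by
  haveI : Finite H := Finite.of_surjective f hf
  have h1 := hH (N.map f) (hN.map f hf) (IsZGroup.of_surjective (f := f.subgroupMap N) (f.subgroupMap_surjective N))
  intro x hx
  have h2 : f x ∈ N.map f := ⟨x, hx, rfl⟩
  rw [h1, mem_bot] at h2
  exact h2

theorem card_alt4 : Nat.card (alternatingGroup (Fin 4)) = 12 := by
  rw [Nat.card_eq_fintype_card]
  decide +kernel

/-- the four large quotients -/
def BigQuot (N : Subgroup G) : Prop := (∀ N' : Subgroup G, N'.Normal → IsZGroup N' → N' ≤ N) ∧ 12 ≤ N.index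

theorem bigQuot_of {H : Type v} [Group H] (hH : NoZ H) (hc : 12 ≤ Nat.card H) (f : G →* H) (hf : Function.Surjective f) :
    BigQuot f.ker := by
  refine ⟨fun N' h1 h2 => le_ker_of_noZ hH f hf h1 h2, ?_⟩
  rw [Subgroup.index_ker, MonoidHom.range_eq_top.mpr hf, Subgroup.card_top]
  exact hc

/-- trichotomy -/
theorem quotList_cases {N : Subgroup G} (hN : QuotList N) : N = ⊤ ∨
    (∃ f : G →* DihedralGroup 2, Function.Surjective f ∧ f.ker = N) ∨ BigQuot N := by
  rcases hN with h | h | ⟨f, hf, rfl⟩ | ⟨f, hf, rfl⟩ | ⟨f, hf, rfl⟩ | ⟨f, hf, rfl⟩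
  · exact Or.inl h
  · exact Or.inr (Or.inl h)
  · exact Or.inr (Or.inr (bigQuot_of noZ_alt4 (by rw [card_alt4]) f hf))
  · exact Or.inr (Or.inr (bigQuot_of noZ_perm4 (by rw [Nat.card_eq_fintype_card, Fintype.card_perm]; decide) f hf))
  · exact Or.inr (Or.inr (bigQuot_of noZ_alt5 (by rw [H56.Tri235.card_alt5]; norm_num) f hf))
  · exact Or.inr (Or.inr (bigQuot_of noZ_perm5 (by rw [Nat.card_eq_fintype_card, Fintype.card_perm]; decide) f hf))

theorem klein_index {N : Subgroup G} (f : G →* DihedralGroup 2) (hf : Function.Surjective f) (hk : f.ker = N) : N.index = 4 := by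
  rw [← hk, Subgroup.index_ker, MonoidHom.range_eq_top.mpr hf, Subgroup.card_top, Nat.card_eq_fintype_card, DihedralGroup.card]

/-- a Z-group has no large quotients -/
theorem eq_top_of_zgroup (hZ : IsZGroup G) {N : Subgroup G} (hN : QuotList N) : N = ⊤ := by
  rcases quotList_cases hN with h | ⟨f, hf, -⟩ | h
  · exact h
  · exfalso
    haveI : IsZGroup (DihedralGroup 2) := IsZGroup.of_surjective hf
    have h1 : (DihedralGroup.sr 0 : DihedralGroup 2) = DihedralGroup.sr 1 :=
      zgroup_involution (by decide) (by decide) (by decide) (by decide) (by decide)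
    exact absurd h1 (by decide)
  · have h1 := h.1 ⊤ inferInstance inferInstance
    exact top_le_iff.mp h1

theorem klein_unique (h : HasFPFModule G) {N N' : Subgroup G} (f : G →* DihedralGroup 2) (hf : Function.Surjective f)
    (hk : f.ker = N) (f' : G →* DihedralGroup 2) (hf' : Function.Surjective f') (hk' : f'.ker = N') : N = N' := by
  haveI : Fact (Nat.Prime 2) := ⟨Nat.prime_two⟩
  set F : G →* DihedralGroup 2 × DihedralGroup 2 := f.prod f' with hF
  have hker : F.ker = N ⊓ N' := by rw [hF, MonoidHom.ker_prod, hk, hk']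
  have hsq : ∀ y : DihedralGroup 2 × DihedralGroup 2, y * y = 1 := by decide +kernel
  have hcm : ∀ y z : DihedralGroup 2 × DihedralGroup 2, y * z = z * y := by decide +kernel
  -- the image of a Sylow 2-subgroup
  set T : Sylow 2 G := default
  have h2 : IsPGroup 2 F.range := by
    rintro ⟨y, hy⟩
    refine ⟨1, Subtype.ext ?_⟩
    show y ^ 2 ^ 1 = 1
    rw [pow_one, pow_two, hsq]
  have hTr : (T : Subgroup G).map F = F.range := by
    have h3 := (T.mapSurjective F.rangeRestrict_surjective).3 (Q := ⊤) (h2.of_equiv Subgroup.topEquiv.symm) le_top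
    rw [Sylow.coe_mapSurjective] at h3
    have h4 : ((T : Subgroup G).map F.rangeRestrict).map F.range.subtype = (⊤ : Subgroup F.range).map F.range.subtype := by
      rw [← h3]
    rw [Subgroup.map_map, ← MonoidHom.range_eq_map, Subgroup.range_subtype] at h4
    exact h4
  have hcard : Nat.card F.range ≤ 4 := by
    rw [← hTr]
    have key : ∃ α β : DihedralGroup 2 × DihedralGroup 2, ∀ y ∈ (T : Subgroup G).map F, y = 1 ∨ y = α ∨ y = β ∨ y = α * β := by
      rcases psub h T.2 with hc | ⟨-, n, ⟨e⟩⟩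
      · obtain ⟨a, ha⟩ := hc.exists_generator
        refine ⟨F a, 1, ?_⟩
        rintro _ ⟨x, hx, rfl⟩
        obtain ⟨k, hk⟩ := ha ⟨x, hx⟩
        have h5 : x = (a : G) ^ k := by
          have := congrArg Subtype.val hk
          simpa using this.symm
        rw [h5, map_zpow]
        rcases Int.even_or_odd' k with ⟨l, hl | hl⟩
        · left; rw [hl, zpow_mul, zpow_ofNat, pow_two, hsq, one_zpow]
        · right; left; rw [hl, zpow_add, zpow_mul, zpow_ofNat, pow_two, hsq, one_zpow, zpow_one, one_mul]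
      · haveI : NeZero (2 * 2 ^ n) := ⟨by positivity⟩
        refine ⟨F (e.symm (QuaternionGroup.a 1) : G), F (e.symm (QuaternionGroup.xa 0) : G), ?_⟩
        have hai : ∀ i : ZMod (2 * 2 ^ n), F (e.symm (QuaternionGroup.a i) : G) = 1 ∨
            F (e.symm (QuaternionGroup.a i) : G) = F (e.symm (QuaternionGroup.a 1) : G) := by
          intro i
          have h5 : (QuaternionGroup.a i : QuaternionGroup (2 ^ n)) = (QuaternionGroup.a 1) ^ i.val := by
            rw [QuaternionGroup.a_one_pow, ZMod.natCast_zmod_val]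
          rw [h5, map_pow, Subgroup.coe_pow, map_pow]
          rcases Nat.even_or_odd' i.val with ⟨l, hl | hl⟩
          · left; rw [hl, pow_mul, pow_two, hsq, one_pow]
          · right; rw [hl, pow_add, pow_mul, pow_two, hsq, one_pow, pow_one, one_mul]
        rintro _ ⟨x, hx, rfl⟩
        obtain ⟨q, hq⟩ := e.symm.surjective ⟨x, hx⟩
        have h5 : x = (e.symm q : G) := (congrArg Subtype.val hq).symm
        rw [h5]
        rcases q with i | i
        · rcases hai i with h6 | h6
          · exact Or.inl h6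
          · exact Or.inr (Or.inl h6)
        · have h6 : (QuaternionGroup.xa i : QuaternionGroup (2 ^ n)) = QuaternionGroup.xa 0 * QuaternionGroup.a i := by
            rw [QuaternionGroup.xa_mul_a, zero_add]
          rw [h6, map_mul, Subgroup.coe_mul, map_mul]
          rcases hai i with h7 | h7
          · rw [h7, mul_one]; exact Or.inr (Or.inr (Or.inl rfl))
          · rw [h7, hcm]; exact Or.inr (Or.inr (Or.inr rfl))
    obtain ⟨α, β, hy⟩ := key
    have h5 : (((T : Subgroup G).map F : Subgroup _) : Set (DihedralGroup 2 × DihedralGroup 2)) ⊆ {1, α, β, α * β} := by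
      intro y hy'
      exact hy y hy'
    have h6 := Set.ncard_le_ncard h5 (Set.toFinite _)
    have h7 : ({1, α, β, α * β} : Set (DihedralGroup 2 × DihedralGroup 2)).ncard ≤ 4 := by
      refine (Set.ncard_insert_le _ _).trans ?_
      refine Nat.add_le_add_right ((Set.ncard_insert_le _ _).trans ?_) 1
      refine Nat.add_le_add_right ((Set.ncard_insert_le _ _).trans ?_) 1
      rw [Set.ncard_singleton]
    exact h6.trans h7
  have hidx : (N ⊓ N').index ≤ 4 := by
    rw [← hker, Subgroup.index_ker]; exact hcard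
  have hN := klein_index f hf hk
  have hN' := klein_index f' hf' hk'
  have hle : ∀ A : Subgroup G, A.index = 4 → N ⊓ N' ≤ A → N ⊓ N' = A := by
    intro A hA hle
    apply Subgroup.eq_of_le_of_card_ge hle
    have h5 := (N ⊓ N').card_mul_index
    have h6 := A.card_mul_index
    rw [hA] at h6
    have h7 : 0 < (N ⊓ N').index := Nat.pos_of_ne_zero Subgroup.index_ne_zero_of_finite
    have h8 : Nat.card (N ⊓ N' : Subgroup G) * (N ⊓ N').index ≤ Nat.card (N ⊓ N' : Subgroup G) * 4 := Nat.mul_le_mul_left _ hidx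
    omega
  rw [← hle N hN inf_le_left]
  exact hle N' hN' inf_le_right

theorem quot_unique (h : HasFPFModule G) {N N' : Subgroup G} (hn : N.Normal) (hn' : N'.Normal) (hZ : IsZGroup N)
    (hZ' : IsZGroup N') (hN : QuotList N) (hN' : QuotList N') : N = N' := by
  have hidx : ∀ A B : Subgroup G, A ≤ B → B.index ≤ A.index := fun A B hAB =>
    Nat.le_of_dvd (Nat.pos_of_ne_zero Subgroup.index_ne_zero_of_finite) (Subgroup.index_dvd_of_le hAB)
  rcases quotList_cases hN with h1 | ⟨f, hf, hk⟩ | h1
  · have : IsZGroup G := IsZGroup.of_injective (f := (Subgroup.topEquiv (G := G)).symm.toMonoidHom.comp (MonoidHom.id G) |> fun g => (MulEquiv.subgroupCongr h1.symm).toMonoidHom.comp g) (by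
      intro x y hxy
      have := (MulEquiv.subgroupCongr h1.symm).injective hxy
      exact Subgroup.topEquiv.symm.injective this)
    rw [h1, eq_top_of_zgroup this hN']
  · rcases quotList_cases hN' with h1' | ⟨f', hf', hk'⟩ | h1'
    · have : IsZGroup G := IsZGroup.of_injective (f := (MulEquiv.subgroupCongr h1'.symm).toMonoidHom.comp (Subgroup.topEquiv (G := G)).symm.toMonoidHom) (by
        intro x y hxy
        have := (MulEquiv.subgroupCongr h1'.symm).injective hxy
        exact Subgroup.topEquiv.symm.injective this)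
      rw [h1', eq_top_of_zgroup this hN]
    · exact klein_unique h f hf hk f' hf' hk'
    · exfalso
      have h3 := hidx _ _ (h1'.1 N hn hZ)
      have h4 := klein_index f hf hk
      have h5 := h1'.2
      omega
  · rcases quotList_cases hN' with h1' | ⟨f', hf', hk'⟩ | h1'
    · have : IsZGroup G := IsZGroup.of_injective (f := (MulEquiv.subgroupCongr h1'.symm).toMonoidHom.comp (Subgroup.topEquiv (G := G)).symm.toMonoidHom) (by
        intro x y hxy
        have := (MulEquiv.subgroupCongr h1'.symm).injective hxy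
        exact Subgroup.topEquiv.symm.injective this)
      rw [h1', eq_top_of_zgroup this hN]
    · exfalso
      have h3 := hidx _ _ (h1.1 N' hn' hZ')
      have h4 := klein_index f' hf' hk'
      have h5 := h1.2
      omega
    · exact le_antisymm (h1'.1 N hn hZ) (h1.1 N' hn' hZ')

/-- existence in general -/
theorem exists_quot (h : HasFPFModule G) : ∃ N : Subgroup G, N.Normal ∧ IsZGroup N ∧ QuotList N := by
  by_cases hs : Group.IsSolvable G
  · obtain ⟨N, h1, h2, h3⟩ := exists_quot_solvable h hs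
    refine ⟨N, h1, h2, ?_⟩
    rcases h3 with h3 | h3 | h3 | h3
    · exact Or.inl h3
    · exact Or.inr (Or.inl h3)
    · exact Or.inr (Or.inr (Or.inl h3))
    · exact Or.inr (Or.inr (Or.inr (Or.inl h3)))
  · obtain ⟨e⟩ := K3_iso_of_not_solvable h hs
    obtain ⟨Ψ, hker, hmap⟩ := exists_hom_perm5 (K3 G) e
    refine ⟨Ψ.ker, inferInstance, ?_, ?_⟩
    · constructor
      intro p hp P
      haveI : Fact p.Prime := ⟨hp⟩
      rcases psub (h.subgroup Ψ.ker) P.2 with hc | ⟨rfl, -⟩
      · exact hc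
      · have h4 : Nat.card P ≤ 2 := by
          apply card_le_two (h.subgroup Ψ.ker) P.2
          rintro ⟨z, hz⟩ - h4
          apply Subtype.ext
          exact no_order4_centralizer h e (by rw [← hker]; exact hz) (congrArg Subtype.val h4)
        have h5 : 0 < Nat.card P := Nat.card_pos
        rcases Nat.lt_or_ge (Nat.card P) 2 with h6 | h6
        · haveI : Subsingleton P := (Nat.card_eq_one_iff_unique.mp (by omega)).1
          exact isCyclic_of_subsingleton
        · exact isCyclic_of_prime_card (p := 2) (by omega)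
    · by_cases hr : Ψ.range = ⊤
      · exact Or.inr (Or.inr (Or.inr (Or.inr (Or.inr ⟨Ψ, MonoidHom.range_eq_top.mp hr, rfl⟩))))
      · have h4 : alternatingGroup (Fin 5) ≤ Ψ.range := by
          rw [← hmap]; rintro _ ⟨x, -, rfl⟩; exact ⟨x, rfl⟩
        have h5 : 2 * Nat.card Ψ.range = Nat.card (Equiv.Perm (Fin 5)) := by
          have h6 : Nat.card (Equiv.Perm (Fin 5)) = 120 := by
            rw [Nat.card_eq_fintype_card, Fintype.card_perm]; rfl
          have h7 := Subgroup.card_dvd_of_le h4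
          rw [H56.Tri235.card_alt5] at h7
          have h8 := Subgroup.card_subgroup_dvd_card Ψ.range
          rw [h6] at h8 ⊢
          have h9 : Nat.card Ψ.range ≠ 120 := fun h9 => hr (Subgroup.eq_top_of_card_eq _ (by rw [h9, h6]))
          have h10 := Nat.le_of_dvd (by norm_num) h8
          have h11 : 0 < Nat.card Ψ.range := Nat.card_pos
          omega
        obtain ⟨f', hf', hk'⟩ := alt_of_card (by norm_num) Ψ h5
        exact Or.inr (Or.inr (Or.inr (Or.inr (Or.inl ⟨f', hf', hk'⟩))))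

end Cfsg.Agent.FC
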