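import Cfsg.Agent.FC.Struct5
import Cfsg.Agent.FC.Semi

/-!
Reduction of fixed-point-free rational representations modulo a prime.
-/

set_option autoImplicit false
set_option linter.unusedSectionVars false

namespace Cfsg.Agent.FC

open Matrix
open Frob (HasFPFModule IsFPF)

universe u v w

section lattice

variable {G : Type u} [Group G] {M : Type v} [AddCommGroup M] (ρ : G →* Module.End ℤ M)

/-- the multiplicative automorphism group action from an additive one -/
def toMulAut : G →* MulAut (Multiplicative M) where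
  toFun g :=
    { toFun := fun w => Multiplicative.ofAdd (ρ g w.toAdd)
      invFun := fun w => Multiplicative.ofAdd (ρ g⁻¹ w.toAdd)
      left_inv := fun w => by
        show Multiplicative.ofAdd (ρ g⁻¹ (ρ g w.toAdd)) = w
        rw [← Module.End.mul_apply, ← map_mul, inv_mul_cancel, map_one]; rfl
      right_inv := fun w => by
        show Multiplicative.ofAdd (ρ g (ρ g⁻¹ w.toAdd)) = w
        rw [← Module.End.mul_apply, ← map_mul, mul_inv_cancel, map_one]; rfl
      map_mul' := fun v w => congrArg Multiplicative.ofAdd (map_add (ρ g) v.toAdd w.toAdd) }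
  map_one' := by
    apply MulEquiv.ext
    intro w
    show Multiplicative.ofAdd (ρ 1 w.toAdd) = w
    rw [map_one]; rfl
  map_mul' g h := by
    apply MulEquiv.ext
    intro w
    show Multiplicative.ofAdd (ρ (g * h) w.toAdd) = Multiplicative.ofAdd (ρ g (ρ h w.toAdd))
    rw [map_mul]; rfl

/-- the induced action on the quotient by `p` -/
def quotAct (p : ℕ) : G →* Module.End ℤ (M ⧸ LinearMap.range ((p : ℤ) • (LinearMap.id : M →ₗ[ℤ] M))) where
  toFun g := Submodule.mapQ _ _ (ρ g) (by
    rintro _ ⟨v, rfl⟩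
    refine ⟨ρ g v, ?_⟩
    simp)
  map_one' := by
    apply Submodule.linearMap_qext
    ext v
    simp [map_one]
  map_mul' g h := by
    apply Submodule.linearMap_qext
    ext v
    simp [map_mul]

theorem exists_fpf_quot [Finite G] [Module.Finite ℤ M] [Module.IsTorsionFree ℤ M] [Nontrivial M]
    (hN : ∀ g : G, g ≠ 1 → ∀ v : M, ∑ i ∈ Finset.range (orderOf g), ρ (g ^ i) v = 0) :
    ∃ p : ℕ, p.Prime ∧ Finite (M ⧸ LinearMap.range ((p : ℤ) • (LinearMap.id : M →ₗ[ℤ] M))) ∧
      Nontrivial (M ⧸ LinearMap.range ((p : ℤ) • (LinearMap.id : M →ₗ[ℤ] M))) ∧ IsFPF (toMulAut (quotAct ρ p)) := by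
  obtain ⟨p, hp, hpp⟩ := Nat.exists_infinite_primes (Nat.card G + 1)
  set P := LinearMap.range ((p : ℤ) • (LinearMap.id : M →ₗ[ℤ] M)) with hP
  have hpz : (p : ℤ) ≠ 0 := by exact_mod_cast hpp.ne_zero
  have hkill : ∀ q : M ⧸ P, (p : ℤ) • q = 0 := by
    intro q
    obtain ⟨v, rfl⟩ := P.mkQ_surjective q
    rw [← map_smul, ← LinearMap.mem_ker, Submodule.ker_mkQ]
    exact ⟨v, by simp⟩
  refine ⟨p, hpp, ?_, ?_, ?_⟩
  · apply Module.finite_of_fg_torsion
    intro q
    exact ⟨⟨(p : ℤ), mem_nonZeroDivisors_of_ne_zero hpz⟩, hkill q⟩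
  · rw [Submodule.Quotient.nontrivial_iff]
    intro htop
    have hle : (⊤ : Submodule ℤ M) ≤ Ideal.span {(p : ℤ)} • (⊤ : Submodule ℤ M) := by
      intro x _
      have hx : x ∈ P := (hP.trans htop).symm.le Submodule.mem_top
      obtain ⟨v, rfl⟩ := hx
      rw [LinearMap.smul_apply, LinearMap.id_apply]
      exact Submodule.smul_mem_smul (Ideal.mem_span_singleton_self _) Submodule.mem_top
    obtain ⟨r, hr, hr0⟩ := Submodule.exists_sub_one_mem_and_smul_eq_zero_of_fg_of_le_smul _ _ Module.Finite.fg_top hle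
    have hr1 : r ≠ 0 := by
      rintro rfl
      rw [Ideal.mem_span_singleton, zero_sub, dvd_neg] at hr
      have h1 : p ∣ 1 := by exact_mod_cast hr
      exact hpp.one_lt.ne' (Nat.dvd_one.mp h1)
    obtain ⟨v, hv⟩ := exists_ne (0 : M)
    have h1 := hr0 v trivial
    exact hv ((smul_eq_zero.mp h1).resolve_left hr1)
  · intro g hg w hw
    set q := w.toAdd with hq
    have h1 : quotAct ρ p g q = q := congrArg Multiplicative.toAdd hw
    have h2 : ∀ i : ℕ, quotAct ρ p (g ^ i) q = q := by
      intro i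
      induction i with
      | zero => rw [pow_zero, map_one]; rfl
      | succ i ih => rw [pow_succ, map_mul, Module.End.mul_apply, h1, ih]
    have h3 : ∑ i ∈ Finset.range (orderOf g), quotAct ρ p (g ^ i) q = 0 := by
      obtain ⟨v, hv⟩ := P.mkQ_surjective q
      rw [← hv]
      have h4 : ∀ i, quotAct ρ p (g ^ i) (P.mkQ v) = P.mkQ (ρ (g ^ i) v) := fun i => rfl
      rw [Finset.sum_congr rfl (fun i _ => h4 i), ← map_sum, hN g hg v, map_zero]
    rw [Finset.sum_congr rfl (fun i _ => h2 i), Finset.sum_const, Finset.card_range] at h3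
    -- coprimality
    have hcop : IsCoprime ((orderOf g : ℕ) : ℤ) (p : ℤ) := by
      rw [Nat.isCoprime_iff_coprime]
      apply Nat.Coprime.symm
      rw [Nat.Prime.coprime_iff_not_dvd hpp]
      intro hd
      have h4 := Nat.le_of_dvd (orderOf_pos g) hd
      have h5 : orderOf g ≤ Nat.card G := Nat.le_of_dvd Nat.card_pos (orderOf_dvd_natCard g)
      omega
    obtain ⟨a, b, hab⟩ := hcop
    have h4 : q = 0 := by
      have e1 : (a * ((orderOf g : ℕ) : ℤ)) • q = 0 := by
        have e3 : ((orderOf g : ℕ) : ℤ) • q = 0 := (natCast_zsmul q (orderOf g)).trans h3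
        rw [mul_smul, e3]
        exact smul_zero a
      have e2 : (b * (p : ℤ)) • q = 0 := by
        rw [mul_smul, hkill q]
        exact smul_zero b
      have h5 : (a * ((orderOf g : ℕ) : ℤ) + b * (p : ℤ)) • q = 0 := by
        rw [add_smul, e1, e2, add_zero]
      rwa [hab, one_smul] at h5
    exact congrArg Multiplicative.ofAdd h4

end lattice

/-- a fixed-point-free rational representation gives a fixed-point-free module -/
theorem hasFPFModule_of_hasMat {G : Type} [Group G] [Finite G] (h : HasMat ℚ G) : HasFPFModule G := by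
  classical
  obtain ⟨n, R, hn, hR⟩ := h
  haveI : Nonempty (Fin n) := ⟨⟨0, hn⟩⟩
  let S : Set (Fin n → ℚ) := Set.range (fun q : G × Fin n => R q.1 *ᵥ Pi.single q.2 1)
  let M : Submodule ℤ (Fin n → ℚ) := Submodule.span ℤ S
  have hinv : ∀ (g : G) (v : Fin n → ℚ), v ∈ M → R g *ᵥ v ∈ M := by
    intro g v hv
    induction hv using Submodule.span_induction with
    | mem v hv =>
      obtain ⟨⟨h, i⟩, rfl⟩ := hv
      apply Submodule.subset_span
      refine ⟨(g * h, i), ?_⟩
      show R (g * h) *ᵥ _ = R g *ᵥ (R h *ᵥ _)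
      rw [map_mul, Matrix.mulVec_mulVec]
    | zero => rw [Matrix.mulVec_zero]; exact M.zero_mem
    | add a b _ _ ha hb => rw [Matrix.mulVec_add]; exact M.add_mem ha hb
    | smul c a _ ha => rw [Matrix.mulVec_smul]; exact M.smul_mem c ha
  haveI : Module.Finite ℤ M := Module.Finite.iff_fg.mpr (Submodule.fg_span (Set.finite_range _))
  haveI : Module.IsTorsionFree ℤ M := inferInstance
  haveI : Nontrivial M := by
    refine ⟨⟨Pi.single ⟨0, hn⟩ 1, Submodule.subset_span ⟨(1, ⟨0, hn⟩), by
      show R 1 *ᵥ _ = _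
      rw [map_one, Matrix.one_mulVec]⟩⟩, 0, ?_⟩
    intro h0
    have h1 := congrArg Subtype.val h0
    have h2 := congrFun h1 ⟨0, hn⟩
    simp at h2
  let ρ : G →* Module.End ℤ M :=
    { toFun := fun g => 
        { toFun := fun v => ⟨R g *ᵥ v, hinv g v v.2⟩
          map_add' := fun v w => Subtype.ext (by
            show R g *ᵥ ((v : Fin n → ℚ) + (w : Fin n → ℚ)) = R g *ᵥ (v : Fin n → ℚ) + R g *ᵥ (w : Fin n → ℚ)
            exact Matrix.mulVec_add _ _ _)
          map_smul' := fun c v => Subtype.ext (by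
            show R g *ᵥ (c • (v : Fin n → ℚ)) = c • (R g *ᵥ (v : Fin n → ℚ))
            exact Matrix.mulVec_smul _ _ _) }
      map_one' := by
        ext v : 2
        show R 1 *ᵥ (v : Fin n → ℚ) = v
        rw [map_one, Matrix.one_mulVec]
      map_mul' := by
        intro g h
        ext v : 2
        show R (g * h) *ᵥ (v : Fin n → ℚ) = R g *ᵥ (R h *ᵥ v)
        rw [map_mul, Matrix.mulVec_mulVec] }
  have hρ : ∀ (g : G) (v : M), ((ρ g v : M) : Fin n → ℚ) = R g *ᵥ v := fun g v => rfl
  obtain ⟨p, hp, h1, h2, h3⟩ := exists_fpf_quot ρ (by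
    intro g hg v
    apply Subtype.ext
    apply hR g hg
    have hsum : ((∑ i ∈ Finset.range (orderOf g), ρ (g ^ i) v : M) : Fin n → ℚ) =
        ∑ i ∈ Finset.range (orderOf g), R (g ^ i) *ᵥ (v : Fin n → ℚ) := by
      rw [AddSubmonoidClass.coe_finset_sum]
      rfl
    rw [hsum]
    have h4 : R g *ᵥ (∑ i ∈ Finset.range (orderOf g), R (g ^ i) *ᵥ (v : Fin n → ℚ)) =
        ∑ i ∈ Finset.range (orderOf g), R (g ^ (i + 1)) *ᵥ (v : Fin n → ℚ) := by
      rw [Matrix.mulVec_sum]
      apply Finset.sum_congr rfl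
      intro i _
      rw [Matrix.mulVec_mulVec, ← map_mul, pow_succ']
    rw [h4]
    have h5 := Finset.sum_range_succ (fun i => R (g ^ i) *ᵥ (v : Fin n → ℚ)) (orderOf g)
    have h6 := Finset.sum_range_succ' (fun i => R (g ^ i) *ᵥ (v : Fin n → ℚ)) (orderOf g)
    rw [pow_orderOf_eq_one] at h5
    rw [pow_zero] at h6
    exact (add_right_cancel (h5.symm.trans h6)).symm)
  refine ⟨Multiplicative (M ⧸ LinearMap.range ((p : ℤ) • (LinearMap.id : M →ₗ[ℤ] M))), inferInstance, ?_, ?_, _, h3⟩
  · exact h1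
  · exact h2

/-- the Frobenius complement from a module -/
theorem exists_frobenius {G : Type} [Group G] [Finite G] [Nontrivial G] (h : HasFPFModule G) :
    ∃ (L : Type) (_ : Group L) (_ : Finite L) (H : Subgroup L), Cfsg.IsFrobeniusComplement H ∧ Nonempty (G ≃* H) := by
  obtain ⟨W, i1, i2, i3, φ, hφ⟩ := h
  haveI : Finite (W ⋊[φ] G) := Finite.of_equiv _ SemidirectProduct.equivProd.symm
  exact ⟨W ⋊[φ] G, inferInstance, inferInstance, _, isFrobeniusComplement_inr φ hφ,
    ⟨MonoidHom.ofInjective (SemidirectProduct.inr_injective (φ := φ))⟩⟩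

end Cfsg.Agent.FC
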