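import Cfsg.Agent.FC.Red
import Mathlib.LinearAlgebra.Matrix.Kronecker
import Mathlib.Algebra.Group.Shrink

/-!
Frobenius complements and rational fixed-point-free representations; direct products.
-/

set_option autoImplicit false
set_option linter.unusedSectionVars false

namespace Cfsg.Agent.FC

open Matrix
open Frob (HasFPFModule IsFPF)
open scoped Kronecker

universe u v w

/-- being a Frobenius complement of a finite group -/
def FC (G : Type u) [Group G] : Prop :=
  ∃ (L : Type) (_ : Group L) (_ : Finite L) (H : Subgroup L), Cfsg.IsFrobeniusComplement H ∧ Nonempty (G ≃* H)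

theorem FC.hasMat {G : Type u} [Group G] [Finite G] (h : FC G) : HasMat ℚ G :=
  hasMat_of_hasFPFModule (hasFPFModule_of_FC h)

theorem fc_of_hasMat {G : Type u} [Group G] [Finite G] [Nontrivial G] (h : HasMat ℚ G) : FC G := by
  let e : Shrink.{0} G ≃* G := Shrink.mulEquiv
  have : Finite (Shrink.{0} G) := Finite.of_equiv _ e.symm.toEquiv
  have : Nontrivial (Shrink.{0} G) := e.toEquiv.nontrivial
  obtain ⟨L, i1, i2, H, hH, ⟨f⟩⟩ := exists_frobenius (hasFPFModule_of_hasMat (h.of_injective e.toMonoidHom e.injective))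
  exact ⟨L, i1, i2, H, hH, ⟨e.symm.trans f⟩⟩

theorem hasMat_prod {A : Type u} {B : Type v} [Group A] [Group B] [Finite A] [Finite B] {k : Type*} [Field k]
    (hA : HasMat k A) (hB : HasMat k B) (hc : (Nat.card A).Coprime (Nat.card B)) : HasMat k (A × B) := by
  classical
  obtain ⟨n, RA, hn, hRA⟩ := hA
  obtain ⟨m, RB, hm, hRB⟩ := hB
  haveI : Nonempty (Fin n) := ⟨⟨0, hn⟩⟩
  haveI : Nonempty (Fin m) := ⟨⟨0, hm⟩⟩
  let R : A × B →* Matrix (Fin n × Fin m) (Fin n × Fin m) k :=
    { toFun := fun g => RA g.1 ⊗ₖ RB g.2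
      map_one' := by
        show RA 1 ⊗ₖ RB 1 = 1
        rw [map_one, map_one, Matrix.one_kronecker_one]
      map_mul' := fun g h => by
        show RA (g.1 * h.1) ⊗ₖ RB (g.2 * h.2) = _
        rw [map_mul, map_mul, Matrix.mul_kronecker_mul] }
  have h1 : ∀ a : A, a ≠ 1 → ∀ v, R (a, 1) *ᵥ v = v → v = 0 := by
    intro a ha v hv
    have h2 : ∀ j, RA a *ᵥ (fun i => v (i, j)) = fun i => v (i, j) := by
      intro j
      funext i
      have h3 := congrFun hv (i, j)
      rw [← h3]
      show ∑ i' : Fin n, RA a i i' * v (i', j) = ∑ q : Fin n × Fin m, (RA a ⊗ₖ RB 1) (i, j) q * v q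
      rw [Fintype.sum_prod_type]
      apply Finset.sum_congr rfl
      intro i' _
      rw [map_one]
      simp only [Matrix.kroneckerMap_apply, Matrix.one_apply]
      simp
    funext q
    obtain ⟨i, j⟩ := q
    exact congrFun (hRA a ha _ (h2 j)) i
  have h2 : ∀ b : B, b ≠ 1 → ∀ v, R (1, b) *ᵥ v = v → v = 0 := by
    intro b hb v hv
    have h2 : ∀ i, RB b *ᵥ (fun j => v (i, j)) = fun j => v (i, j) := by
      intro i
      funext j
      have h3 := congrFun hv (i, j)
      rw [← h3]
      show ∑ j' : Fin m, RB b j j' * v (i, j') = ∑ q : Fin n × Fin m, (RA 1 ⊗ₖ RB b) (i, j) q * v q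
      rw [Fintype.sum_prod_type_right]
      apply Finset.sum_congr rfl
      intro j' _
      rw [map_one]
      simp only [Matrix.kroneckerMap_apply, Matrix.one_apply]
      simp
    funext q
    obtain ⟨i, j⟩ := q
    exact congrFun (hRB b hb _ (h2 i)) j
  have hpow : ∀ (g : A × B) (v), R g *ᵥ v = v → ∀ i : ℕ, R (g ^ i) *ᵥ v = v := by
    intro g v hv i
    induction i with
    | zero => rw [pow_zero, map_one, Matrix.one_mulVec]
    | succ i ih => rw [pow_succ, map_mul, ← Matrix.mulVec_mulVec, hv, ih]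
  apply HasMat.of_rep (V := Fin n × Fin m → k) (Matrix.toLinAlgEquiv'.toAlgHom.toRingHom.toMonoidHom.comp R)
  intro g hg v hv
  have hv' : R g *ᵥ v = v := hv
  obtain ⟨a, b⟩ := g
  have hab : (orderOf a).Coprime (orderOf b) :=
    Nat.Coprime.of_dvd (orderOf_dvd_natCard a) (orderOf_dvd_natCard b) hc
  by_cases ha : a = 1
  · subst ha
    exact h2 b (fun h => hg (by rw [h]; rfl)) v hv'
  · apply h1 (a ^ orderOf b) _ v
    · have h3 := hpow _ _ hv' (orderOf b)
      rwa [Prod.pow_mk, pow_orderOf_eq_one] at h3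
    · intro h3
      have h4 : orderOf a ∣ orderOf b := orderOf_dvd_of_pow_eq_one h3
      have h5 : orderOf a = 1 := Nat.Coprime.eq_one_of_dvd hab h4
      exact ha (orderOf_eq_one_iff.mp h5)

end Cfsg.Agent.FC
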