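import Mathlib

/-!
Abelian groups of odd order with a quaternion action have square order.
-/

set_option autoImplicit false
set_option linter.unusedSectionVars false

namespace Cfsg.Agent.FC

universe u

/-- `-1` is a sum of two squares modulo every odd number -/
theorem exists_sq_add_sq {n : ℕ} (hn : Odd n) : ∃ a b : ℕ, n ∣ a ^ 2 + b ^ 2 + 1 := by
  have hcop : Nat.Coprime 4 n := by
    have h2 : Nat.Coprime 2 n := (Nat.coprime_two_left).mpr hn
    have : (4 : ℕ) = 2 ^ 2 := by norm_num
    rw [this]; exact Nat.Coprime.pow_left 2 h2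
  have hn0 : 0 < n := hn.pos
  obtain ⟨r, hr4, hrn⟩ := Nat.chineseRemainder hcop 1 (n - 1)
  have hrc : Nat.Coprime r (4 * n) := by
    apply Nat.Coprime.mul_right
    · rw [Nat.Coprime, Nat.gcd_comm]
      have h1 : Nat.gcd 4 r = Nat.gcd 4 1 := by
        rw [Nat.gcd_comm, hr4.gcd_eq, Nat.gcd_comm]
      rw [h1]; norm_num
    · rw [Nat.Coprime, hrn.gcd_eq]
      have : Nat.Coprime (n - 1) n := by
        rcases Nat.lt_or_ge n 2 with h | h
        · have : n = 1 := by omega
          rw [this]; norm_num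
        · have h3 : n = (n - 1) + 1 := by omega
          nth_rewrite 2 [h3]
          simp
      exact this
  haveI : NeZero (4 * n) := ⟨by omega⟩
  have hu : IsUnit ((r : ℕ) : ZMod (4 * n)) := (ZMod.isUnit_iff_coprime r (4 * n)).mpr hrc
  obtain ⟨q, hq0, hq, hqr⟩ := Nat.forall_exists_prime_gt_and_eq_mod hu 2
  have hmod : q ≡ r [MOD 4 * n] := (ZMod.natCast_eq_natCast_iff q r (4 * n)).mp hqr
  have h4 : q % 4 = 1 := by
    have h1 : q ≡ 1 [MOD 4] := (hmod.of_mul_right n).trans hr4
    exact h1
  haveI : Fact q.Prime := ⟨hq⟩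
  obtain ⟨a, b, hab⟩ := Nat.Prime.sq_add_sq (p := q) (by omega)
  refine ⟨a, b, ?_⟩
  rw [hab]
  have h5 : q ≡ n - 1 [MOD n] := (hmod.of_mul_left 4).trans hrn
  have h6 : q + 1 ≡ n - 1 + 1 [MOD n] := h5.add_right 1
  rw [Nat.sub_add_cancel hn0] at h6
  exact (Nat.modEq_zero_iff_dvd.mp (h6.trans (by simp [Nat.ModEq])))

/-- abelian groups of odd order with a quaternion action -/
theorem isSquare_card_of_quat {A : Type u} [AddCommGroup A] [Finite A] (hodd : Odd (Nat.card A)) (I J : A →+ A)
    (hI : ∀ v, I (I v) = -v) (hJ : ∀ v, J (J v) = -v) (hIJ : ∀ v, I (J v) = -J (I v)) : IsSquare (Nat.card A) := by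
  obtain ⟨a, b, c, hab⟩ := exists_sq_add_sq hodd
  set m := Nat.card A with hm
  have hkill : ∀ v : A, m • v = 0 := fun v => by rw [hm]; exact card_nsmul_eq_zero'
  let T : A →+ A := a • I + b • J
  have hT : ∀ v, T v = a • I v + b • J v := fun v => rfl
  have hTT : ∀ v, T (T v) = v := by
    intro v
    have h1 : T (T v) + (a ^ 2 + b ^ 2 + 1) • v = v := by
      rw [hT (T v), hT v, map_add, map_add, map_nsmul, map_nsmul, map_nsmul, map_nsmul, hI, hJ, hIJ, add_smul, add_smul,
        pow_two, pow_two, one_smul, mul_smul, mul_smul]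
      simp only [smul_neg, smul_add]
      rw [smul_comm b a]
      abel
    rw [hab, mul_comm, mul_smul, hkill, smul_zero, add_zero] at h1
    exact h1
  obtain ⟨k, hk⟩ := hodd
  -- halving
  have hhalf : ∀ v : A, (k + 1) • v + (k + 1) • v = v := by
    intro v
    rw [← add_smul]
    have : k + 1 + (k + 1) = m + 1 := by omega
    rw [this, add_smul, hkill, zero_add, one_smul]
  let f : A →+ A := AddMonoidHom.id A + T
  have hf : ∀ v, f v = v + T v := fun v => rfl
  let Vp : AddSubgroup A := (AddMonoidHom.id A - T).ker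
  let Vm : AddSubgroup A := f.ker
  have hVp : ∀ v, v ∈ Vp ↔ T v = v := by
    intro v
    rw [AddMonoidHom.mem_ker]
    show v - T v = 0 ↔ _
    rw [sub_eq_zero, eq_comm]
  have hVm : ∀ v, v ∈ Vm ↔ T v = -v := by
    intro v
    rw [AddMonoidHom.mem_ker, hf]
    constructor
    · intro h; exact (neg_eq_of_add_eq_zero_right h).symm
    · intro h; rw [h, add_neg_cancel]
  have hrange : f.range = Vp := by
    ext v
    rw [hVp]
    constructor
    · rintro ⟨w, rfl⟩
      rw [hf, map_add, hTT, add_comm]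
    · intro hv
      refine ⟨(k + 1) • v, ?_⟩
      rw [hf, map_nsmul, hv, hhalf]
  have hK : ∀ v, T (I (J v)) = -(I (J (T v))) := by
    intro v
    rw [hT, hT, map_add, map_add, map_nsmul, map_nsmul, map_nsmul, map_nsmul, hI]
    have e1 : J (I (J v)) = I v := by
      have := hIJ (J v)
      rw [hJ, map_neg] at this
      rw [← neg_inj]; exact this.symm
    have e2 : I (J (I v)) = J v := by
      rw [hIJ, hI, map_neg, neg_neg]
    rw [e1, e2, hJ, map_neg]
    simp only [smul_neg, neg_add_rev, neg_neg]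
    abel
  have hcard1 : Nat.card A = Nat.card Vp * Nat.card Vm := by
    have h1 := AddSubgroup.card_mul_index f.ker
    rw [AddSubgroup.index_ker, hrange] at h1
    rw [← h1, mul_comm]
  have hinjK : Function.Injective (fun v => I (J v)) := by
    intro v w h
    have h1 : I (I (J v)) = I (I (J w)) := congrArg I h
    rw [hI, hI, neg_inj] at h1
    have h2 : J (J v) = J (J w) := congrArg J h1
    rw [hJ, hJ, neg_inj] at h2
    exact h2
  have hle1 : Nat.card Vp ≤ Nat.card Vm := by
    apply Nat.card_le_card_of_injective (fun v : Vp => (⟨I (J v), by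
      rw [hVm, hK, (hVp v).mp v.2]⟩ : Vm))
    intro v w h
    exact Subtype.ext (hinjK (congrArg Subtype.val h))
  have hle2 : Nat.card Vm ≤ Nat.card Vp := by
    apply Nat.card_le_card_of_injective (fun v : Vm => (⟨I (J v), by
      rw [hVp, hK, (hVm v).mp v.2, map_neg, map_neg, neg_neg]⟩ : Vp))
    intro v w h
    exact Subtype.ext (hinjK (congrArg Subtype.val h))
  refine ⟨Nat.card Vp, ?_⟩
  rw [hm, hcard1, le_antisymm hle2 hle1]

end Cfsg.Agent.FC
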