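import Cfsg.Agent.FC.Meta
import Cfsg.Agent.Cop.Basic

/-!
Structure of Z-groups with fixed-point-free modules.
-/

set_option autoImplicit false
set_option linter.unusedSectionVars false

namespace Cfsg.Agent.FC

open Frob (HasFPFModule)
open Subgroup

universe u

variable {G : Type u} [Group G] [Finite G]

theorem card_sup_dvd_normalizer {H K : Subgroup G}
    (h : H ≤ Subgroup.normalizer (K : Set G)) : Nat.card ↥(H ⊔ K) ∣ Nat.card H * Nat.card K := by
  have h1 := Subgroup.relIndex_mul_relIndex ⊥ K (H ⊔ K) bot_le le_sup_right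
  rw [Subgroup.relIndex_bot_left, Subgroup.relIndex_bot_left, Cop.relIndex_sup_eq h] at h1
  rw [← h1, mul_comm]
  exact Nat.mul_dvd_mul_right (Subgroup.relIndex_dvd_card _ _) _

/-- elements of distinct prime orders, one normalising the other, commute -/
theorem commute_of_primes (h : HasFPFModule G) {p q : ℕ} (hp : p.Prime) (hq : q.Prime) (hpq : p ≠ q) {w z : G}
    (hw : w ^ p = 1) (hz : z ^ q = 1) (hn : w * z * w⁻¹ ∈ zpowers z) : w * z = z * w := by
  by_cases hw1 : w = 1
  · rw [hw1, one_mul, mul_one]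
  by_cases hz1 : z = 1
  · rw [hz1, one_mul, mul_one]
  haveI : Fact p.Prime := ⟨hp⟩
  haveI : Fact q.Prime := ⟨hq⟩
  have how : orderOf w = p := orderOf_eq_prime hw hw1
  have hoz : orderOf z = q := orderOf_eq_prime hz hz1
  have hN : zpowers w ≤ normalizer ((zpowers z : Subgroup G) : Set G) := by
    rw [zpowers_le]
    have h1 : (zpowers z).map (MulAut.conj w).toMonoidHom = zpowers z := by
      apply Subgroup.eq_of_le_of_card_ge
      · rw [MonoidHom.map_zpowers, zpowers_le]
        exact hn
      · rw [Subgroup.card_map_of_injective (MulAut.conj w).injective]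
    rw [mem_normalizer_iff]
    intro y
    constructor
    · intro hy
      rw [← h1]
      exact ⟨y, hy, rfl⟩
    · intro hy
      rw [← h1] at hy
      obtain ⟨y', hy', hyy⟩ := hy
      have h2 : w * y' * w⁻¹ = w * y * w⁻¹ := hyy
      rwa [← mul_left_cancel (mul_right_cancel h2)]
  set X := zpowers w ⊔ zpowers z with hX
  have hcard : Nat.card X = p * q := by
    have h1 : Nat.card X ∣ p * q := by
      have := card_sup_dvd_normalizer hN
      rwa [Nat.card_zpowers, Nat.card_zpowers, how, hoz] at this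
    have h2 : p ∣ Nat.card X := by
      have := Subgroup.card_dvd_of_le (le_sup_left : zpowers w ≤ X)
      rwa [Nat.card_zpowers, how] at this
    have h3 : q ∣ Nat.card X := by
      have := Subgroup.card_dvd_of_le (le_sup_right : zpowers z ≤ X)
      rwa [Nat.card_zpowers, hoz] at this
    exact Nat.dvd_antisymm h1 (((Nat.coprime_primes hp hq).mpr hpq).mul_dvd_of_dvd_of_dvd h2 h3)
  haveI := (h.subgroup X).isCyclic_of_card_eq_mul hp hq hcard
  have hwX : w ∈ X := mem_sup_left (mem_zpowers w)
  have hzX : z ∈ X := mem_sup_right (mem_zpowers z)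
  letI := IsCyclic.commGroup (α := X)
  exact congrArg Subtype.val (mul_comm (⟨w, hwX⟩ : X) ⟨z, hzX⟩)

/-- an element of prime order centralises a cyclic group of coprime order which it normalises -/
theorem commute_of_prime_cyclic (h : HasFPFModule G) {p : ℕ} (hp : p.Prime) {w y : G} (hw : w ^ p = 1)
    (hcop : ¬ p ∣ orderOf y) (hn : w * y * w⁻¹ ∈ zpowers y) : w * y = y * w := by
  by_contra hne
  obtain ⟨s, hs⟩ := hn
  simp only at hs
  have hconj : ∀ j : ℤ, w * y ^ j * w⁻¹ = (y ^ j) ^ s := by
    intro j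
    rw [← conj_zpow, ← hs, ← zpow_mul, ← zpow_mul, mul_comm]
  set z0 := w * y * w⁻¹ * y⁻¹ with hz0
  have hz0' : z0 = y ^ (s - 1) := by rw [hz0, ← hs, zpow_sub_one]
  have hz01 : z0 ≠ 1 := by
    intro h1
    apply hne
    have h2 : w * y * w⁻¹ = y := mul_inv_eq_one.mp h1
    exact mul_inv_eq_iff_eq_mul.mp h2
  have ho1 : orderOf z0 ≠ 1 := by rwa [Ne, orderOf_eq_one_iff]
  obtain ⟨q, hq, hqd⟩ := Nat.exists_prime_and_dvd ho1
  obtain ⟨k, hk⟩ := hqd
  have hpos := orderOf_pos z0
  have hz : (z0 ^ k) ^ q = 1 := by rw [← pow_mul, mul_comm, ← hk, pow_orderOf_eq_one]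
  have hz1 : z0 ^ k ≠ 1 := by
    intro h1
    have h2 := Nat.le_of_dvd (by
      rcases Nat.eq_zero_or_pos k with rfl | h
      · omega
      · exact h) (orderOf_dvd_of_pow_eq_one h1)
    have := hq.two_le
    have h3 : 0 < k := by
      rcases Nat.eq_zero_or_pos k with rfl | h
      · omega
      · exact h
    nlinarith
  haveI : Fact q.Prime := ⟨hq⟩
  have hoz : orderOf (z0 ^ k) = q := orderOf_eq_prime hz hz1
  have hpq : p ≠ q := by
    rintro rfl
    apply hcop
    rw [← hoz, hz0', ← zpow_natCast, ← zpow_mul]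
    exact orderOf_dvd_of_mem_zpowers ⟨_, rfl⟩
  -- z := z0^k = w y1 w⁻¹ y1⁻¹
  have hz' : z0 ^ k = w * y ^ (k : ℤ) * w⁻¹ * (y ^ (k : ℤ))⁻¹ := by
    rw [hconj, hz0', ← zpow_natCast, ← zpow_mul, ← zpow_mul, ← zpow_neg, ← zpow_add]
    congr 1; ring
  have hcomm : w * (z0 ^ k) = (z0 ^ k) * w := by
    apply commute_of_primes h hp hq hpq hw hz
    have h1 : z0 ^ k = y ^ ((s - 1) * k) := by rw [hz0', ← zpow_natCast, ← zpow_mul]
    rw [h1, hconj]
    exact zpow_mem (mem_zpowers _) _
  set z := z0 ^ k with hzdef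
  set y1 := y ^ (k : ℤ) with hy1
  have h2 : w * y1 * w⁻¹ = z * y1 := by rw [hz', inv_mul_cancel_right]
  have h3 : ∀ i : ℕ, w ^ i * y1 * (w ^ i)⁻¹ = z ^ i * y1 := by
    intro i
    induction i with
    | zero => simp
    | succ i ih =>
      have hc : Commute w (z ^ i) := (show Commute w z from hcomm).pow_right i
      calc w ^ (i + 1) * y1 * (w ^ (i + 1))⁻¹ = w * (w ^ i * y1 * (w ^ i)⁻¹) * w⁻¹ := by rw [pow_succ']; group
        _ = w * (z ^ i * y1) * w⁻¹ := by rw [ih]
        _ = z ^ i * (w * y1 * w⁻¹) := by rw [← mul_assoc, hc.eq]; group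
        _ = z ^ (i + 1) * y1 := by rw [h2, ← mul_assoc, pow_succ]
  have h4 := h3 p
  rw [hw, one_mul, inv_one, mul_one] at h4
  have h5 : z ^ p = 1 := by
    have : 1 * y1 = z ^ p * y1 := by rw [one_mul]; exact h4
    exact (mul_right_cancel this).symm
  have h6 : orderOf z ∣ p := orderOf_dvd_of_pow_eq_one h5
  rw [hoz] at h6
  exact hpq ((Nat.prime_dvd_prime_iff_eq hq hp).mp h6).symm

theorem zgroup_pres (h : HasFPFModule G) [hZ : IsZGroup G] :
    ∃ n m r : ℕ, 0 < n ∧ 0 < m ∧ Nat.Coprime (r - 1) m ∧ Nat.Coprime n m ∧ 1 ≤ r ∧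
        r ^ (n / ∏ p ∈ n.primeFactors, p) % m = 1 % m ∧ Nonempty (G ≃* PresentedGroup (mR n m r)) := by
  have hcop := hZ.coprime_commutator_index
  obtain ⟨H, hH⟩ := Subgroup.exists_right_complement'_of_coprime hcop
  have hHc : IsCyclic H := by
    have h1 : Abelianization G ≃* H := hH.symm.QuotientMulEquiv
    exact isCyclic_of_surjective _ h1.surjective
  have hDc : IsCyclic (commutator G) := IsZGroup.isCyclic_commutator G
  set D := commutator G with hD
  obtain ⟨⟨y, hyD⟩, hy⟩ := hDc.exists_generator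
  obtain ⟨⟨x, hxH⟩, hx⟩ := hHc.exists_generator
  have hDz : D = zpowers y := by
    apply le_antisymm
    · intro d hd
      obtain ⟨k, hk⟩ := hy ⟨d, hd⟩
      exact ⟨k, congrArg Subtype.val hk⟩
    · rw [zpowers_le]; exact hyD
  have hHz : H = zpowers x := by
    apply le_antisymm
    · intro d hd
      obtain ⟨k, hk⟩ := hx ⟨d, hd⟩
      exact ⟨k, congrArg Subtype.val hk⟩
    · rw [zpowers_le]; exact hxH
  set n := orderOf x with hn
  set m := orderOf y with hm
  have hn0 : 0 < n := orderOf_pos x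
  have hm0 : 0 < m := orderOf_pos y
  have hcardD : Nat.card D = m := by rw [hDz, Nat.card_zpowers]
  have hcardH : Nat.card H = n := by rw [hHz, Nat.card_zpowers]
  have hcard : Nat.card G = n * m := by
    have := hH.card_mul_card
    rw [hcardD, hcardH] at this
    rw [← this, mul_comm]
  have hcop' : Nat.Coprime n m := by
    have h1 : D.index = n := by
      have h2 := D.card_mul_index
      rw [hcardD, hcard, mul_comm n] at h2
      exact Nat.eq_of_mul_eq_mul_left hm0 h2
    rw [hcardD, h1] at hcop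
    exact hcop.symm
  have hgen : Subgroup.closure {x, y} = ⊤ := by
    rw [eq_top_iff, ← hH.sup_eq_top, sup_le_iff, hDz, hHz, zpowers_le, zpowers_le]
    exact ⟨Subgroup.subset_closure (by simp), Subgroup.subset_closure (by simp)⟩
  -- the exponent
  have hconjD : x⁻¹ * y * x ∈ zpowers y := by
    rw [← hDz]
    have := (inferInstance : D.Normal).conj_mem y hyD x⁻¹
    rwa [inv_inv] at this
  obtain ⟨r0, hr0⟩ := (isOfFinOrder_of_finite y).mem_powers_iff_mem_zpowers.mpr hconjD
  simp only at hr0
  set r := r0 + m with hr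
  have hyr : x⁻¹ * y * x = y ^ r := by rw [hr, pow_add, hm, pow_orderOf_eq_one, mul_one, hr0]
  have hr1 : 1 ≤ r := by omega
  have hr' : ((r - 1 : ℕ) : ℤ) = (r : ℤ) - 1 := by push_cast [Nat.cast_sub hr1]; ring
  -- commutator is generated by y^(r-1)
  have hK : y ∈ zpowers (y ^ (r - 1)) := by
    have hKn : (zpowers (y ^ (r - 1))).Normal := by
      constructor
      intro a ha g
      obtain ⟨k, rfl⟩ := ha
      have h1 : g * y * g⁻¹ ∈ zpowers y := by
        rw [← hDz]; exact (inferInstance : D.Normal).conj_mem y hyD g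
      obtain ⟨l, hl⟩ := h1
      simp only at hl
      have h2 : g * (y ^ (r - 1)) ^ k * g⁻¹ = (y ^ (r - 1)) ^ (l * k) := by
        rw [← conj_zpow, ← conj_pow, ← hl, ← zpow_natCast, ← zpow_natCast, ← zpow_mul, ← zpow_mul, ← zpow_mul]
        congr 1; ring
      rw [h2]
      exact ⟨_, rfl⟩
    set K := zpowers (y ^ (r - 1)) with hKdef
    have hxy : (QuotientGroup.mk' K x) * (QuotientGroup.mk' K y) = (QuotientGroup.mk' K y) * (QuotientGroup.mk' K x) := by
      rw [← map_mul, ← map_mul]
      show (QuotientGroup.mk (x * y) : G ⧸ K) = QuotientGroup.mk (y * x)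
      rw [QuotientGroup.eq]
      have h1 : (x * y)⁻¹ * (y * x) = y⁻¹ * (x⁻¹ * y * x) := by group
      rw [h1, hyr]
      refine ⟨1, ?_⟩
      show (y ^ (r - 1)) ^ (1 : ℤ) = y⁻¹ * y ^ r
      rw [zpow_one, ← zpow_natCast, hr', zpow_sub_one, zpow_natCast]
      exact ((Commute.refl y).inv_left.pow_right r).eq.symm
    have hcomm : commutator (G ⧸ K) = ⊥ := by
      rw [commutator_eq_bot_iff_center_eq_top]
      have hgen' : Subgroup.closure {QuotientGroup.mk' K x, QuotientGroup.mk' K y} = ⊤ := by
        have h1 := congrArg (Subgroup.map (QuotientGroup.mk' K)) hgen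
        rw [MonoidHom.map_closure, Set.image_pair, ← MonoidHom.range_eq_map,
          MonoidHom.range_eq_top.mpr (QuotientGroup.mk'_surjective K)] at h1
        exact h1
      have hcx : ∀ a ∈ ({QuotientGroup.mk' K x, QuotientGroup.mk' K y} : Set (G ⧸ K)), (⊤ : Subgroup (G ⧸ K)) ≤ centralizer {a} := by
        intro a ha
        rw [← hgen', Subgroup.closure_le]
        intro b hb
        rw [SetLike.mem_coe, mem_centralizer_singleton_iff]
        rcases ha with rfl | rfl <;> rcases hb with rfl | rfl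
        · rfl
        · exact hxy.symm
        · exact hxy
        · rfl
      rw [eq_top_iff, ← hgen', Subgroup.closure_le]
      intro a ha
      rw [SetLike.mem_coe, mem_center_iff]
      intro g
      exact mem_centralizer_singleton_iff.mp (hcx a ha (mem_top g))
    have hle : commutator G ≤ K := by
      have h1 : (commutator G).map (QuotientGroup.mk' K) ≤ commutator (G ⧸ K) := by
        rw [_root_.commutator_def, Subgroup.map_commutator, _root_.commutator_def]
        exact Subgroup.commutator_mono le_top le_top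
      rw [hcomm, le_bot_iff, Subgroup.map_eq_bot_iff, QuotientGroup.ker_mk'] at h1
      exact h1
    exact hle hyD
  have hcr : Nat.Coprime (r - 1) m := by
    obtain ⟨k, hk⟩ := hK
    simp only at hk
    rw [Nat.coprime_iff_gcd_eq_one]
    by_contra hg
    obtain ⟨q, hq, hqd⟩ := Nat.exists_prime_and_dvd hg
    have h1 : q ∣ r - 1 := hqd.trans (Nat.gcd_dvd_left _ _)
    have h2 : q ∣ m := hqd.trans (Nat.gcd_dvd_right _ _)
    obtain ⟨c, hc⟩ := h1
    obtain ⟨d, hd⟩ := h2
    have h3 : y ^ d = 1 := by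
      have h4 : y ^ (d : ℤ) = 1 := by
        nth_rewrite 1 [← hk]
        rw [← zpow_natCast, ← zpow_mul, ← zpow_mul]
        have e : ((r - 1 : ℕ) : ℤ) * (k * d) = (m : ℤ) * (c * k) := by
          rw [hc, hd]; push_cast; ring
        rw [e, zpow_mul, zpow_natCast, hm, pow_orderOf_eq_one, one_zpow]
      rwa [zpow_natCast] at h4
    have h4 := orderOf_dvd_of_pow_eq_one h3
    have hd0 : 0 < d := by
      rcases Nat.eq_zero_or_pos d with rfl | h
      · omega
      · exact h
    have h5 := Nat.le_of_dvd hd0 h4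
    have := hq.two_le
    nlinarith
  -- the exponent condition
  have hpc : ∀ p ∈ n.primeFactors, x ^ (n / p) * y = y * x ^ (n / p) := by
    intro p hp
    have hpp := Nat.prime_of_mem_primeFactors hp
    have hpn := Nat.dvd_of_mem_primeFactors hp
    apply commute_of_prime_cyclic h hpp
    · rw [← pow_mul, Nat.div_mul_cancel hpn, hn, pow_orderOf_eq_one]
    · intro h1
      have := Nat.Coprime.eq_one_of_dvd (Nat.Coprime.coprime_dvd_left hpn hcop') h1
      exact hpp.one_lt.ne' this
    · rw [← hDz]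
      exact (inferInstance : D.Normal).conj_mem y hyD _
  set n' := ∏ p ∈ n.primeFactors, p with hn'
  have hn'n : n' ∣ n := Nat.prod_primeFactors_dvd n
  have hcomm : x ^ (n / n') * y = y * x ^ (n / n') := by
    set C := zpowers x ⊓ centralizer {y} with hC
    have hCc : n' ∣ Nat.card C := by
      rw [hn']
      apply Finset.prod_primes_dvd
      · intro p hp; exact (Nat.prime_of_mem_primeFactors hp).prime
      · intro p hp
        have hpp := Nat.prime_of_mem_primeFactors hp
        have hpn := Nat.dvd_of_mem_primeFactors hp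
        haveI : Fact p.Prime := ⟨hpp⟩
        have h1 : orderOf (x ^ (n / p)) = p := by
          rw [orderOf_pow' x (Nat.div_pos (Nat.le_of_dvd hn0 hpn) hpp.pos).ne', ← hn,
            Nat.gcd_eq_right (Nat.div_dvd_of_dvd hpn), Nat.div_div_self hpn hn0.ne']
        have h2 : x ^ (n / p) ∈ C := ⟨pow_mem (mem_zpowers x) _, mem_centralizer_singleton_iff.mpr (hpc p hp)⟩
        rw [← h1, ← Subgroup.orderOf_mk (x ^ (n / p)) h2]
        exact orderOf_dvd_natCard _
    -- C is cyclic; take its subgroup of order n'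
    have hCz : C ≤ zpowers x := inf_le_left
    haveI : IsCyclic (zpowers x) := inferInstance
    haveI : IsCyclic C := isCyclic_of_injective (Subgroup.inclusion hCz) (Subgroup.inclusion_injective hCz)
    obtain ⟨c, hc⟩ := IsCyclic.exists_generator (α := C)
    obtain ⟨d, hd⟩ := hCc
    have hoc : orderOf c = Nat.card C := orderOf_eq_card_of_forall_mem_zpowers hc
    have hn'0 : 0 < n' := Nat.pos_of_dvd_of_pos hn'n hn0
    have hd0 : 0 < d := by
      rcases Nat.eq_zero_or_pos d with rfl | h
      · have : 0 < Nat.card C := Nat.card_pos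
        omega
      · exact h
    have ho1 : orderOf ((c : G) ^ d) = n' := by
      rw [orderOf_pow' _ hd0.ne', Subgroup.orderOf_coe, hoc, hd, Nat.gcd_eq_right (Dvd.intro_left _ rfl), Nat.mul_div_cancel _ hd0]
    have ho2 : orderOf (x ^ (n / n')) = n' := by
      rw [orderOf_pow' x (Nat.div_pos (Nat.le_of_dvd hn0 hn'n) hn'0).ne', ← hn,
        Nat.gcd_eq_right (Nat.div_dvd_of_dvd hn'n), Nat.div_div_self hn'n hn0.ne']
    have hle1 : zpowers ((c : G) ^ d) ≤ zpowers x := by
      rw [zpowers_le]; exact pow_mem (hCz c.2) _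
    have hle2 : zpowers (x ^ (n / n')) ≤ zpowers x := by
      rw [zpowers_le]; exact pow_mem (mem_zpowers x) _
    have heq := Frob.eq_of_card_eq_of_isCyclic ((zpowers ((c : G) ^ d)).subgroupOf (zpowers x))
      ((zpowers (x ^ (n / n'))).subgroupOf (zpowers x)) (by
        rw [Nat.card_congr (subgroupOfEquivOfLe hle1).toEquiv, Nat.card_congr (subgroupOfEquivOfLe hle2).toEquiv,
          Nat.card_zpowers, Nat.card_zpowers, ho1, ho2])
    have hmem : (⟨x ^ (n / n'), hle2 (mem_zpowers _)⟩ : zpowers x) ∈ (zpowers (x ^ (n / n'))).subgroupOf (zpowers x) := by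
      rw [mem_subgroupOf]; exact mem_zpowers _
    rw [← heq, mem_subgroupOf] at hmem
    have h1 : x ^ (n / n') ∈ C := by
      have h2 : zpowers ((c : G) ^ d) ≤ C := by rw [zpowers_le]; exact pow_mem c.2 _
      exact h2 hmem
    exact mem_centralizer_singleton_iff.mp h1.2
  have hpow : ∀ N : ℕ, (x ^ N)⁻¹ * y * x ^ N = y ^ (r ^ N) := by
    intro N
    induction N with
    | zero => simp
    | succ N ih =>
      calc (x ^ (N + 1))⁻¹ * y * x ^ (N + 1) = x⁻¹ * ((x ^ N)⁻¹ * y * x ^ N) * x := by rw [pow_succ]; group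
        _ = x⁻¹ * y ^ (r ^ N) * x := by rw [ih]
        _ = y ^ (r ^ (N + 1)) := by
          have h2 := conj_pow (a := x⁻¹) (b := y) (i := r ^ N)
          rw [inv_inv] at h2
          rw [← h2, hyr, ← pow_mul, pow_succ, mul_comm]
  refine ⟨n, m, r, hn0, hm0, hcr, hcop', hr1, ?_, ?_⟩
  · have h1 := hpow (n / n')
    rw [mul_assoc, ← hcomm, inv_mul_cancel_left] at h1
    have h2 : y ^ (r ^ (n / n')) = y ^ 1 := by rw [← h1, pow_one]
    exact (pow_eq_pow_iff_modEq.mp h2)
  · exact metacyclic_pres hn0 hm0 (pow_orderOf_eq_one x) (pow_orderOf_eq_one y) hyr hcard hgen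

end Cfsg.Agent.FC
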